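import Mathlib
import Cfsg.Agent.Lib.Wl5.Defs

/-! The normaliser of `7^(1+2)` is maximal in `SL₇(q)`: vocabulary.  See `plans/WL7.md`. -/

set_option autoImplicit false

namespace CfsgLib.Wl7

open Matrix Subgroup Cfsg Cfsg.Geo CfsgLib.Asch
open scoped commutatorElement MatrixGroups

variable {F : Type*} [Field F]

/-- a Heisenberg pair -/
structure HP7 {ι : Type} [Fintype ι] [DecidableEq ι] (ζ : Fˣ) (x y : GL ι F) : Prop where
  prim : IsPrimitiveRoot (ζ : F) 7
  x7 : x ^ 7 = 1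
  y7 : y ^ 7 = 1
  comm : x * y = sc ι ζ * (y * x)
  env_top : env (closure {x, y}) = ⊤

abbrev M7 (F : Type*) : Type _ := Matrix (Fin 7) (Fin 7) F

def X7 (ζ : F) : M7 F := diagonal fun i => ζ ^ (i : ℕ)

def Y7 (F : Type*) [Field F] : M7 F := of fun i j => if i = j + 1 then 1 else 0

def U7 (ζ : F) : M7 F := diagonal ![1, ζ ^ 4, ζ ^ 2, ζ, ζ, ζ ^ 2, ζ ^ 4]

def F7 (ζ : F) : M7 F := of fun i j => ζ ^ ((i * j : Fin 7) : ℕ)

def Z7 (F : Type*) [Field F] : M7 F := of fun i j => if i + j = 0 then 1 else 0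

def T7 (F : Type*) [Field F] : M7 F := of fun i j => if i = 2 * j then 1 else 0

/-- the Gauss sum, a square root of `-7` -/
def gs (ζ : F) : F := 1 + 2 * (ζ + ζ ^ 2 + ζ ^ 4)

/-- the standard generators of `7^(1+2) : SL₂(7)` -/
structure Std (ζ : Fˣ) (x y u s t z : GL (Fin 7) F) : Prop where
  prim : IsPrimitiveRoot (ζ : F) 7
  ex : x.1 = X7 (ζ : F)
  ey : y.1 = Y7 F
  eu : u.1 = U7 (ζ : F)
  es : gs (ζ : F) • s.1 = -F7 (ζ : F)
  et : t.1 = T7 F
  ez : z.1 = -Z7 F

/-- relations that hold in `SL₂(7)` -/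
structure Rel {G : Type*} [Group G] (a b c z : G) : Prop where
  a7 : a ^ 7 = 1
  c3 : c ^ 3 = 1
  ca : c * a * c⁻¹ = a ^ 2
  bc : b * c * b⁻¹ = c⁻¹
  bb : b * b = z
  zz : z * z = 1
  ab : (a * b) ^ 3 = 1
  k4 : (a ^ 3 * b) ^ 4 = z
  za : z * a = a * z
  zc : z * c = c * z

/-- the centraliser of `z` in `H` is a central extension of `L₃(2)` of the right kind -/
def Good {G : Type*} [Group G] (H : Subgroup G) (z : G) : Prop :=
  ∃ π : ↥(H ⊓ centralizer {z}) →* PSL(3, ZMod 2), Function.Surjective π ∧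
    (∀ d, π d = 1 → (∀ e, d * e = e * d) ∧ (d * d = 1 → d = 1 ∨ (d : G) = z)) ∧
    ∃ k : ↥(H ⊓ centralizer {z}), (k : G) ^ 4 = z ∧ π (k ^ 2) ≠ 1

/-- what is used about the field -/
structure Fld (F : Type*) [Field F] : Prop where
  three : (3 : F) ≠ 0
  five : (5 : F) ≠ 0
  nsq : ∀ (F₁ : Subfield F) (q : ℕ), Nat.card F₁ ≠ q ^ 2
  gen : ∀ F₀ : Subfield F, 7 ∣ Nat.card F₀ ^ 2 - 1 → F₀ = ⊤

abbrev I7 : Type := Fin 3 ⊕ Fin 4

abbrev P34 (F : Type*) [Field F] : Type _ := GL (Fin 3) F × GL (Fin 4) F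

/-- block diagonal matrices -/
def bd : P34 F →* GL I7 F where
  toFun g := ⟨fromBlocks g.1.1 0 0 g.2.1, fromBlocks (g.1⁻¹).1 0 0 (g.2⁻¹).1,
    by simp [fromBlocks_multiply], by simp [fromBlocks_multiply]⟩
  map_one' := Units.ext (by simp)
  map_mul' a b := Units.ext (by simp [fromBlocks_multiply])

/-- the centraliser of `z` in odd characteristic -/
structure Emb (ζ : Fˣ) (u s t z : GL (Fin 7) F) (ε : P34 F →* GL (Fin 7) F) (a b c : P34 F) : Prop where
  inj : Function.Injective ε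
  det : ∀ g, (ε g).1.det = g.1.1.det * g.2.1.det
  cent : ∀ g : GL (Fin 7) F, g * z = z * g → ∃ e, ε e = g
  ez : ε (1, -1) = z
  ea : ε a = u
  eb : ε b = s
  ec : ε c = t
  env3 : env (closure {a.1, b.1, c.1}) = ⊤
  env4 : env (closure {a.2, b.2, c.2}) = ⊤
  tr : a.1.1.trace ≠ (a.1⁻¹).1.trace
  k2 : (a.1 ^ 3 * b.1) ^ 2 ∉ scalars (Fin 3) F
  ew : (2 : F) • (ε (a.1, 1)).1 = 1 + Z7 F + U7 (ζ : F) * (1 - Z7 F)

variable {G G' : Type*} [Group G] [Group G'] {a b c z : G}

theorem Rel.map (h : Rel a b c z) (f : G →* G') : Rel (f a) (f b) (f c) (f z) where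
  a7 := by rw [← map_pow, h.a7, map_one]
  c3 := by rw [← map_pow, h.c3, map_one]
  ca := by rw [← map_pow, ← h.ca]; simp
  bc := by rw [← map_inv f c, ← h.bc]; simp
  bb := by rw [← map_mul, h.bb]
  zz := by rw [← map_mul, h.zz, map_one]
  ab := by rw [← map_mul, ← map_pow, h.ab, map_one]
  k4 := by rw [← h.k4]; simp
  za := by rw [← map_mul, h.za, map_mul]
  zc := by rw [← map_mul, h.zc, map_mul]

theorem Rel.of_map {f : G →* G'} (hf : Function.Injective f) (h : Rel (f a) (f b) (f c) (f z)) : Rel a b c z where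
  a7 := hf (by simpa using h.a7)
  c3 := hf (by simpa using h.c3)
  ca := hf (by simpa using h.ca)
  bc := hf (by simpa using h.bc)
  bb := hf (by simpa using h.bb)
  zz := hf (by simpa using h.zz)
  ab := hf (by simpa using h.ab)
  k4 := hf (by simpa using h.k4)
  za := hf (by simpa using h.za)
  zc := hf (by simpa using h.zc)

theorem mem3 (a b c : G) : a ∈ closure {a, b, c} ∧ b ∈ closure {a, b, c} ∧ c ∈ closure {a, b, c} :=
  ⟨subset_closure (by simp), subset_closure (by simp), subset_closure (by simp)⟩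

theorem closure3_le {M : Subgroup G} (ha : a ∈ M) (hb : b ∈ M) (hc : c ∈ M) : closure {a, b, c} ≤ M :=
  (closure_le M).2 (by rintro _ (rfl | rfl | rfl) <;> assumption)

/-- `K = ⟨a, b, c⟩` is the normal closure of `a` -/
theorem Rel.nc (h : Rel a b c z) {M : Subgroup G} (ha : a ∈ M)
    (hn : ∀ k ∈ closure {a, b, c}, ∀ m ∈ M, k * m * k⁻¹ ∈ M) : closure {a, b, c} ≤ M := by
  obtain ⟨-, mb, mc⟩ := mem3 a b c
  have b3 : b ^ 3 ∈ M := by
    have e : b ^ 3 = (a * (b * a * b⁻¹) * (b * (b * a * b⁻¹) * b⁻¹))⁻¹ * (a * b) ^ 3 := by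
      rw [pow_succ (a * b) 2, pow_two]; group
    rw [e, h.ab, mul_one]
    exact inv_mem (mul_mem (mul_mem ha (hn b mb a ha)) (hn b mb _ (hn b mb a ha)))
  have hb : b ∈ M := by
    have e : b = (b ^ 3)⁻¹ * (b * b * (b * b)) := by simp only [pow_succ, pow_zero]; group
    rw [e, h.bb, h.zz, mul_one]
    exact inv_mem b3
  refine closure3_le ha hb ?_
  have c2 : c * c ∈ M := by
    have e2 : c * c = (c * b * c⁻¹) * b⁻¹ := by
      have := h.bc
      calc c * c = c * (b * c * b⁻¹)⁻¹ := by rw [this, inv_inv]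
        _ = _ := by group
    rw [e2]
    exact mul_mem (hn c mc b hb) (inv_mem hb)
  have e : c = (c * c)⁻¹ * c ^ 3 := by simp only [pow_succ, pow_zero]; group
  rw [e, h.c3, mul_one]
  exact inv_mem c2

theorem Rel.perfect (h : Rel a b c z) : ⁅closure {a, b, c}, closure {a, b, c}⁆ = closure ({a, b, c} : Set G) := by
  obtain ⟨ma, -, mc⟩ := mem3 a b c
  refine le_antisymm (commutator_le.2 fun x hx y hy => mul_mem (mul_mem (mul_mem hx hy) (inv_mem hx)) (inv_mem hy))
    (h.nc ?_ fun k hk m hm => ?_)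
  · have := commutator_mem_commutator mc ma
    rwa [commutatorElement_def, h.ca, pow_two, mul_inv_cancel_right] at this
  · have := commutator_mem_commutator hk (commutator_le.2 (fun x hx y hy =>
      mul_mem (mul_mem (mul_mem hx hy) (inv_mem hx)) (inv_mem hy)) hm)
    rw [show k * m * k⁻¹ = ⁅k, m⁆ * m by rw [commutatorElement_def]; group]
    exact mul_mem this hm

theorem Rel.zmem (h : Rel a b c z) : z ∈ closure {a, b, c} := h.bb ▸ mul_mem (mem3 a b c).2.1 (mem3 a b c).2.1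

theorem Rel.cent (h : Rel a b c z) : closure {a, b, c} ≤ centralizer {z} :=
  closure3_le (mem_centralizer_singleton_iff.2 h.za.symm)
    (mem_centralizer_singleton_iff.2 (by rw [← h.bb, mul_assoc])) (mem_centralizer_singleton_iff.2 h.zc.symm)

theorem Good.comap {H : Subgroup G'} (Φ : G ≃* G') (h : Good H (Φ z)) : Good (H.comap Φ.toMonoidHom) z := by
  obtain ⟨π, h1, h2, k, h3, h4⟩ := h
  have m : ∀ g : G, g ∈ H.comap Φ.toMonoidHom ⊓ centralizer {z} ↔ Φ g ∈ H ⊓ centralizer {Φ z} := fun g => by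
    simp only [mem_inf, mem_comap, mem_centralizer_singleton_iff, ← map_mul, Φ.injective.eq_iff]; rfl
  let e : ↥(H.comap Φ.toMonoidHom ⊓ centralizer {z}) ≃* ↥(H ⊓ centralizer {Φ z}) :=
    { Φ.toEquiv.subtypeEquiv m with map_mul' := fun a b => Subtype.ext (map_mul Φ a.1 b.1) }
  refine ⟨π.comp e.toMonoidHom, h1.comp e.surjective, fun d hd => ⟨fun f => e.injective ?_, fun h5 => ?_⟩,
    e.symm k, Φ.injective ?_, fun h5 => h4 ?_⟩
  · rw [map_mul, map_mul]; exact (h2 _ hd).1 _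
  · exact ((h2 _ hd).2 (by change e d * e d = 1; rw [← map_mul, h5, map_one])).imp
      (fun h6 => e.injective (h6.trans (map_one e).symm)) fun h6 => Φ.injective h6
  · rw [map_pow]
    exact (congrArg (· ^ 4) (congrArg Subtype.val (e.apply_symm_apply k))).trans h3
  · rw [← h5, ← map_pow e.symm]
    exact congrArg π (e.apply_symm_apply _).symm

end CfsgLib.Wl7
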