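import Mathlib
import Cfsg.Agent.Lib.Wl7.Defs
import Cfsg.Agent.Lib.HH.General
import Cfsg.Agent.Lib.Tech.SylowIn

/-! Elements of order seven in dimension at most four.  See `plans/WL7.md`. -/

set_option autoImplicit false
set_option linter.unusedSectionVars false

namespace CfsgLib.Wl7

open Matrix Subgroup Cfsg Cfsg.Geo CfsgLib.Asch CfsgLib.Wl5
open scoped commutatorElement MatrixGroups

namespace LF1

open Module CfsgLib.HH

variable {F : Type*} [Field F] {G : Type*} [Group G] {V : Type*} [AddCommGroup V] [Module F V] [FiniteDimensional F V]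

theorem le_of_powIndep {T : End F V} {m : ℕ} (h : PowIndep (F := F) T m) : m ≤ finrank F V := by
  by_contra hm
  have h1 := T.aeval_self_charpoly
  rw [Polynomial.aeval_eq_sum_range' (n := m) (by rw [T.charpoly_natDegree]; omega)] at h1
  exact one_ne_zero (T.charpoly_monic.coeff_natDegree.symm.trans (h _ h1 _ (by rw [T.charpoly_natDegree]; omega)))

theorem finrank_le {K W : Type*} [Field K] [AddCommGroup W] [Module K W] {ρ : Representation F G V}
    {σ : Representation K G W} (h : RankDom ρ σ) : finrank K W ≤ finrank F V := by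
  have := h 1
  rwa [map_one, map_one, End.one_eq_id, End.one_eq_id, LinearMap.range_id, LinearMap.range_id, finrank_top,
    finrank_top] at this

theorem exists_scalar [IsAlgClosed F] [Nontrivial V] {σ : Representation F G V}
    (hi : ∀ U : Submodule F V, (∀ g, ∀ w ∈ U, σ g w ∈ U) → U = ⊥ ∨ U = ⊤) {s : G}
    (hs : ∀ g, σ (g * s) = σ (s * g)) : ∃ l : F, l ≠ 0 ∧ σ s = l • 1 := by
  obtain ⟨l, hl⟩ := End.exists_eigenvalue (σ s)
  have h1 := (hi (End.eigenspace (σ s) l) fun g w hw => by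
    rw [End.mem_eigenspace_iff] at hw ⊢
    rw [← End.mul_apply, ← map_mul, ← hs, map_mul, End.mul_apply, hw, map_smul]).resolve_left hl
  have h2 : σ s = l • 1 := LinearMap.ext fun w => End.mem_eigenspace_iff.1 (h1.ge trivial)
  refine ⟨l, fun e => ?_, h2⟩
  have := map_mul σ s s⁻¹
  rw [mul_inv_cancel, map_one, h2, e, zero_smul, zero_mul] at this
  exact one_ne_zero this

theorem comm_of_lt (ρ : Representation F G V) (hρ : Function.Injective ρ) [Finite G] {p : ℕ} (hp : p.Prime)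
    (h0 : (p : F) ≠ 0) (hG : IsPGroup p G) (hd : finrank F V < p) (a b : G) : a * b = b * a := by
  have := Fact.mk hp
  by_contra hab
  have : Nontrivial (G ⧸ center G) := QuotientGroup.nontrivial_iff.2 fun e =>
    hab (mem_center_iff.1 (e.ge (mem_top b)) a)
  obtain ⟨⟨y, hy⟩, h1⟩ := @exists_ne _ (hG.to_quotient (center G)).center_nontrivial 1
  obtain ⟨y, rfl⟩ := QuotientGroup.mk_surjective y
  obtain ⟨x, hx⟩ := not_forall.1 fun e => h1 (Subtype.ext ((QuotientGroup.eq_one_iff y).2 (mem_center_iff.2 e)))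
  have hc : x * y * (y * x)⁻¹ ∈ center G := (QuotientGroup.eq_one_iff _).1 (by
    rw [QuotientGroup.mk_mul, QuotientGroup.mk_inv, mul_inv_eq_one]; exact mem_center_iff.1 hy x)
  obtain ⟨k, hk⟩ := hG (x * y * (y * x)⁻¹)
  obtain ⟨W, _, _, _, _, σ, hi, h2, h3⟩ := exists_irred_algClosed ρ (x * y * (y * x)⁻¹) (p ^ k)
    (by rw [Nat.cast_pow]; exact pow_ne_zero _ h0) (by rw [← map_pow, hk, map_one])
    fun e => hx (mul_inv_eq_one.1 (hρ (e.trans (map_one ρ).symm)))
  obtain ⟨l, -, hl⟩ := exists_scalar hi fun g => congrArg σ (mem_center_iff.1 hc g)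
  have h4 : l ^ finrank (AlgebraicClosure F) W = 1 := by
    have := congrArg LinearMap.det hl
    rw [LinearMap.det_smul, map_one, mul_one] at this
    rw [← this]
    exact congrArg Units.val (show (LinearMap.det.comp σ).toHomUnits (x * y * (y * x)⁻¹) = 1 by
      rw [map_mul, map_inv, map_mul, map_mul, mul_comm _ (MonoidHom.toHomUnits _ y), mul_inv_cancel])
  have h5 : l ^ p ^ k = 1 := by
    have := congrArg σ hk
    rw [map_pow, hl, smul_pow, one_pow, map_one] at this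
    exact smul_left_injective _ one_ne_zero (this.trans (one_smul _ _).symm)
  have h6 := pow_gcd_eq_one.2 ⟨h4, h5⟩
  rw [show Nat.gcd _ _ = 1 from (Nat.Coprime.pow_right k (Nat.coprime_of_lt_prime finrank_pos.ne'
    ((finrank_le h3).trans_lt hd) hp).symm), pow_one] at h6
  exact h2 (by rw [hl, h6, one_smul])

theorem step (ρ : Representation F G V) {q r : ℕ} (hq : q.Prime) (hr : r.Prime) (hqr : r ≠ q) (h0 : (q : F) ≠ 0)
    (hd : finrank F V < r - 1 ∨ finrank F V < r ∧ r ≤ q) {Q : Subgroup G} [Finite Q] (hQ : IsPGroup q Q) {x : G}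
    (hx : x ∈ normalizer (Q : Set G)) (h : ∀ g ∈ Q, ρ (x ^ r) * ρ g = ρ g * ρ (x ^ r)) :
    ∀ g ∈ Q, ρ x * ρ g = ρ g * ρ x := by
  have := Fact.mk hq
  intro g hg
  by_contra hn
  let Γ := (centralizer {ρ.asGroupHom (x ^ r)}).comap ρ.asGroupHom
  have m : ∀ y, y ∈ Γ ↔ ρ y * ρ (x ^ r) = ρ (x ^ r) * ρ y := fun y =>
    mem_centralizer_singleton_iff.trans Units.ext_iff
  have mx : x ∈ Γ := (m x).2 (by rw [← map_mul, ← map_mul, ← pow_succ, ← pow_succ'])
  have mQ : Q ≤ Γ := fun y hy => (m y).2 (h y hy).symm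
  have hz : x * g * x⁻¹ * g⁻¹ ∈ Q := mul_mem ((mem_normalizer_iff.1 hx g).1 hg) (inv_mem hg)
  obtain ⟨k, hk⟩ := hQ ⟨_, hz⟩
  obtain ⟨W, _, _, _, _, σ, hi, h2, h3⟩ := exists_irred_algClosed (ρ.comp Γ.subtype) ⟨_, mQ hz⟩ (q ^ k)
    (by rw [Nat.cast_pow]; exact pow_ne_zero _ h0)
    (by rw [← map_pow]; exact (congrArg (fun y : Q => ρ y) hk).trans (map_one ρ))
    fun e => hn ((comm_iff_apply_eq_one ρ x g).2 e)
  obtain ⟨l, hl0, hl⟩ := exists_scalar hi (s := ⟨x, mx⟩ ^ r) fun y => h3.apply_eq (by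
    rw [map_mul, map_mul]; exact (m y).1 y.2)
  obtain ⟨μ, hμ⟩ := IsAlgClosed.exists_pow_nat_eq l⁻¹ hr.pos
  have hμ0 : μ ≠ 0 := fun e => inv_ne_zero hl0 (by rw [← hμ, e, zero_pow hr.ne_zero])
  let τ : Representation (AlgebraicClosure F) (Γ × (AlgebraicClosure F)ˣ) W :=
    { toFun := fun y => (y.2 : AlgebraicClosure F) • σ y.1
      map_one' := by simp
      map_mul' := fun a b => by simp [smul_smul, mul_comm] }
  have e : ∀ y, τ y = (y.2 : AlgebraicClosure F) • σ y.1 := fun _ => rfl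
  have : Finite (Q.subgroupOf Γ) := Finite.of_equiv _ (subgroupOfEquivOfLe mQ).symm.toEquiv
  have : Finite ((Q.subgroupOf Γ).map (MonoidHom.inl Γ (AlgebraicClosure F)ˣ)) :=
    Finite.of_surjective _ (MonoidHom.subgroupMap_surjective _ _)
  have h4 := hh hr hqr (by rw [← map_natCast (algebraMap F _)]; exact (map_ne_zero _).2 h0) τ
    ((Q.subgroupOf Γ).map (MonoidHom.inl _ _)) (⟨x, mx⟩, Units.mk0 μ hμ0) 0 ((hQ.comap_subtype).map _)
    (mem_normalizer_fintype (by
      rintro _ ⟨y, hy, rfl⟩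
      exact ⟨⟨x, mx⟩ * y * ⟨x, mx⟩⁻¹, (mem_normalizer_iff.1 hx y).1 hy, by simp⟩))
    (by rw [zero_add, pow_one, e, smul_pow, ← map_pow, hl, smul_smul, Units.val_mk0, hμ, inv_mul_cancel₀ hl0, one_smul])
    ⟨_, ⟨⟨g, mQ hg⟩, hg, rfl⟩, fun e' => h2 ((comm_iff_apply_eq_one σ ⟨x, mx⟩ ⟨g, mQ hg⟩).1
      (smul_right_injective _ hμ0 (by simpa [e] using e')))⟩
  have h5 := finrank_le h3
  rcases h4 with h4 | ⟨c, b, j, h6, h7, h8, h9, -, h4⟩
  · have := le_of_powIndep h4
    rw [zero_add, pow_one] at this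
    omega
  · obtain ⟨rfl, rfl⟩ : c = 0 ∧ b = 1 := by omega
    have := le_of_powIndep h4
    have := Nat.le_self_pow (n := j) (by omega) q
    simp only [pow_zero, pow_one, one_mul] at *
    omega

/-- an `r`-element which normalises a `q`-group in small dimension -/
theorem small (ρ : Representation F G V) {q r : ℕ} (hq : q.Prime) (hr : r.Prime) (hqr : r ≠ q) (h0 : (q : F) ≠ 0)
    (hd : finrank F V < r - 1 ∨ finrank F V < r ∧ r ≤ q) {Q : Subgroup G} [Finite Q] (hQ : IsPGroup q Q) (n : ℕ) :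
    ∀ x ∈ normalizer (Q : Set G), x ^ r ^ n = 1 → ∀ g ∈ Q, ρ x * ρ g = ρ g * ρ x := by
  induction n with
  | zero => intro x _ h g _; rw [pow_zero, pow_one] at h; simp [h]
  | succ n ih =>
    exact fun x hx h => step ρ hq hr hqr h0 hd hQ hx (ih _ (pow_mem hx r) (by rw [← pow_mul, ← pow_succ', h]))

theorem exists_part [Finite G] {p : ℕ} (hp : p.Prime) (g : G) : ∃ k n, (g ^ (p * k + 1)) ^ p ^ n = 1 := by
  obtain ⟨n, m, hm, e⟩ := Nat.exists_eq_pow_mul_and_not_dvd (orderOf_pos g).ne' p hp.ne_one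
  have h1 := Nat.ModEq.pow_totient ((Nat.Prime.coprime_iff_not_dvd hp).2 hm).symm
  obtain ⟨j, hj⟩ := Nat.exists_eq_succ_of_ne_zero (Nat.totient_pos.2 hp.pos).ne'
  refine ⟨m ^ p.totient / p, n, ?_⟩
  rw [← Nat.mod_eq_of_lt hp.one_lt, ← show _ % p = 1 % p from h1, Nat.div_add_mod, ← pow_mul, hj]
  exact orderOf_dvd_iff_pow_eq_one.1 ⟨m ^ j, by rw [e, pow_succ]; ring⟩

end LF1

open LF1

variable {F : Type*} [Field F] [Finite F] {ι : Type} [Fintype ι] [DecidableEq ι]

/-- the natural representation -/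
noncomputable def LF1.nat (ι : Type) [Fintype ι] [DecidableEq ι] (F : Type*) [Field F] :
    Representation F (GL ι F) (ι → F) :=
  (Matrix.toLinAlgEquiv' (R := F) (n := ι)).toAlgHom.toRingHom.toMonoidHom.comp (Units.coeHom _)

theorem LF1.nat_inj : Function.Injective (nat ι F) := fun _ _ e => Units.ext (Matrix.toLinAlgEquiv'.injective e)

theorem ab7 (hι : Fintype.card ι ≤ 4) {ζ : F} (hζ : IsPrimitiveRoot ζ 7) {P : Subgroup (GL ι F)}
    (hP : IsPGroup 7 P) : ∀ a ∈ P, ∀ b ∈ P, a * b = b * a := fun a ha b hb =>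
  congrArg Subtype.val (comm_of_lt ((nat ι F).comp P.subtype) (nat_inj.comp P.subtype_injective) (by norm_num)
    hζ.neZero'.ne hP (by rw [Module.finrank_fintype_fun_eq_card]; omega) ⟨a, ha⟩ ⟨b, hb⟩)

theorem cent7 (hι : Fintype.card ι ≤ 4) {ζ : F} (hζ : IsPrimitiveRoot ζ 7) {q : ℕ} (hq : q.Prime)
    (hq0 : (q : F) ≠ 0) {Q : Subgroup (GL ι F)} (hQ : IsPGroup q Q) {g : GL ι F} {n : ℕ} (hg : g ^ 7 ^ n = 1)
    (hn : g ∈ normalizer (Q : Set (GL ι F))) : ∀ x ∈ Q, g * x = x * g := fun x hx => by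
  by_cases h : 7 = q
  · subst h
    have : Fact (Nat.Prime 7) := ⟨hq⟩
    exact ab7 hι hζ (IsPGroup.to_sup_of_normal_left' hQ (Tech.isPGroup_zpowers_of_pow hg) (zpowers_le_of_mem hn)) g
      (mem_sup_right (mem_zpowers g)) x (mem_sup_left hx)
  · exact nat_inj (by
      rw [map_mul, map_mul]
      exact small (nat ι F) hq (by norm_num) h hq0 (Or.inl (by rw [Module.finrank_fintype_fun_eq_card]; omega)) hQ n
        g hn hg x hx)

theorem sec73 (h2 : (2 : F) ≠ 0) (h7 : (7 : F) ≠ 0) {ν : Matrix ι ι F} (hν : ν * ν = 1)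
    (hp : Module.finrank F (LinearMap.ker (toLin' (ν - 1))) ≤ 2)
    (hm : Module.finrank F (LinearMap.ker (toLin' (ν + 1))) ≤ 2) {C : Subgroup (GL ι F)}
    (hC : ∀ g ∈ C, g.1 * ν = ν * g.1) {A : Type*} [Group A] (π : C →* A) {a c : C} (ha : π a ^ 7 = 1)
    (hc : π c * π a * (π c)⁻¹ = π a ^ 2) : π a = 1 := by
  have : Fact (Nat.Prime 7) := ⟨by norm_num⟩
  have key : ∀ {P : Subgroup C}, IsPGroup 7 P → ∀ n, ∀ m ∈ normalizer (P : Set C), m ^ 3 ^ n = 1 → ∀ g ∈ P,
      m * g = g * m := fun {P} hP n m hm' h3 g hg => by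
    have h1 : ∀ μ : Matrix ι ι F, (∀ g ∈ C, g.1 * μ = μ * g.1) → Module.finrank F (LinearMap.ker (toLin' μ)) ≤ 2 →
        ∀ v, μ *ᵥ v = 0 → (m * g).1.1 *ᵥ v = (g * m).1.1 *ᵥ v := fun μ hμ hd v hv => by
      let ρ := Representation.subrepresentation ((nat ι F).comp C.subtype) (LinearMap.ker (toLin' μ))
        fun g w (hw : μ *ᵥ w = 0) => show μ *ᵥ (g.1.1 *ᵥ w) = 0 by
          rw [mulVec_mulVec, ← hμ _ g.2, ← mulVec_mulVec, hw, mulVec_zero]
      have := small ρ (by norm_num) Nat.prime_three (by norm_num) h7 (Or.inr ⟨by omega, by norm_num⟩) hP n m hm' h3 g hg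
      rw [← map_mul, ← map_mul] at this
      exact congrArg Subtype.val (LinearMap.congr_fun this ⟨v, hv⟩)
    refine Subtype.ext (Units.ext (toLin'.injective (LinearMap.ext fun v => smul_right_injective _ h2 ?_)))
    have e1 := h1 (ν - 1) (fun g hg => by rw [mul_sub, sub_mul, hC g hg, mul_one, one_mul]) hp ((ν + 1) *ᵥ v)
      (by rw [mulVec_mulVec, mul_add, sub_mul, hν]; simp)
    have e2 := h1 (ν + 1) (fun g hg => by rw [mul_add, add_mul, hC g hg, mul_one, one_mul]) hm ((ν - 1) *ᵥ v)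
      (by rw [mulVec_mulVec, mul_sub, add_mul, hν, add_comm ν]; simp)
    simp only [add_mulVec, sub_mulVec, one_mulVec, mulVec_add, mulVec_sub] at e1 e2
    simp only [toLin'_apply, two_smul]
    linear_combination e1 - e2
  obtain ⟨k, n, hk⟩ := exists_part (p := 7) (by norm_num) a
  have e1 : π (a ^ (7 * k + 1)) = π a := by rw [map_pow, pow_succ, pow_mul, ha, one_pow, one_mul]
  obtain ⟨P, hP, h1⟩ := Tech.exists_isSylowIn_ge (Tech.isPGroup_zpowers_of_pow hk) (H := (zpowers (π a)).comap π)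
    (zpowers_le_of_mem (show π _ ∈ zpowers (π a) from e1.symm ▸ mem_zpowers _))
  obtain ⟨d, ⟨j, hj⟩, hn⟩ := hP.frattini (g := c) (mem_normalizer_fintype (by
    rintro y ⟨j, hj⟩
    refine ⟨2 * j, ?_⟩
    simp only [map_mul, map_inv, ← hj]
    rw [← conj_zpow, hc, ← zpow_natCast, ← _root_.zpow_mul]; rfl))
  obtain ⟨l, m, hl⟩ := exists_part Nat.prime_three (d * c)
  have e2 : ∀ i, π (d * c) ^ i * π a * (π (d * c) ^ i)⁻¹ = π a ^ 2 ^ i := fun i => by
    induction i with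
    | zero => simp
    | succ i ih =>
      rw [pow_succ', show π (d * c) * π (d * c) ^ i * π a * (π (d * c) * π (d * c) ^ i)⁻¹ =
        π (d * c) * (π (d * c) ^ i * π a * (π (d * c) ^ i)⁻¹) * (π (d * c))⁻¹ by group, ih, ← conj_pow, map_mul, ← hj,
        show π a ^ j * π c * π a * (π a ^ j * π c)⁻¹ = π a ^ j * (π c * π a * (π c)⁻¹) * (π a ^ j)⁻¹ by group, hc,
        pow_succ' 2, pow_mul]
      congr 1
      group
  have e3 := congrArg π (key hP.pgroup m _ (pow_mem hn _) hl _ (h1 (mem_zpowers _)))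
  rw [map_mul, map_mul, e1, map_pow, ← mul_inv_eq_iff_eq_mul, e2, pow_eq_pow_mod _ ha, pow_succ, pow_mul, Nat.mul_mod,
    Nat.pow_mod] at e3
  simpa [pow_two] using e3

end CfsgLib.Wl7
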