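import Mathlib
import Cfsg.Agent.Lib.Wl7.Defs
import Cfsg.Agent.Lib.FT.OddOrder
import Cfsg.Agent.S0016

/-! A linear involution in the algebra of a Sylow `2`-subgroup.  See `plans/WL7.md`. -/

set_option autoImplicit false
set_option linter.unusedSectionVars false

namespace CfsgLib.Wl7

open Matrix Subgroup Cfsg Cfsg.Geo CfsgLib.Asch CfsgLib.Wl5
open scoped commutatorElement MatrixGroups

variable {F : Type*} [Field F] [Finite F] {ι : Type} [Fintype ι] [DecidableEq ι]

theorem nu_mem {ν : Matrix ι ι F} {v : ι → F} : (v ∈ LinearMap.ker (toLin' (ν - 1)) ↔ ν *ᵥ v = v) ∧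
    (v ∈ LinearMap.ker (toLin' (ν + 1)) ↔ ν *ᵥ v = -v) := by
  simp only [LinearMap.mem_ker, toLin'_apply, sub_mulVec, add_mulVec, one_mulVec, sub_eq_zero, add_eq_zero_iff_eq_neg,
    and_self]

theorem nu_add (h2 : (2 : F) ≠ 0) (ν : Matrix ι ι F) : Module.finrank F (LinearMap.ker (toLin' (ν - 1))) +
    Module.finrank F (LinearMap.ker (toLin' (ν + 1))) ≤ Fintype.card ι := by
  have := Submodule.finrank_add_finrank_le_of_disjoint (s := LinearMap.ker (toLin' (ν - 1)))
    (t := LinearMap.ker (toLin' (ν + 1))) (Submodule.disjoint_def.2 fun v a b => by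
      refine (smul_eq_zero.1 (?_ : (2 : F) • v = 0)).resolve_left h2
      rw [two_smul, add_eq_zero_iff_eq_neg]
      exact (nu_mem.1.1 a).symm.trans (nu_mem.2.1 b))
  rwa [Module.finrank_fintype_fun_eq_card] at this

theorem nu_det {ν : Matrix ι ι F} (h : ν * ν = 1) :
    ν.det = (-1) ^ Module.finrank F (LinearMap.ker (toLin' (ν + 1))) := by
  have hW : LinearMap.ker (toLin' (ν + 1)) ≤ (LinearMap.ker (toLin' (ν + 1))).comap (toLin' ν) := fun v hv => by
    rw [Submodule.mem_comap, toLin'_apply, nu_mem.2.1 hv]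
    exact neg_mem hv
  have e1 : (toLin' ν).restrict (p := LinearMap.ker (toLin' (ν + 1))) (q := LinearMap.ker (toLin' (ν + 1))) hW =
      (-1 : F) • LinearMap.id := LinearMap.ext fun v => Subtype.ext (by
    simp [LinearMap.restrict_apply, nu_mem.2.1 v.2])
  have e2 : (LinearMap.ker (toLin' (ν + 1))).mapQ _ (toLin' ν) hW = LinearMap.id :=
    Submodule.linearMap_qext _ (LinearMap.ext fun v => by
      simp only [LinearMap.comp_apply, Submodule.mkQ_apply, Submodule.mapQ_apply, LinearMap.id_apply]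
      rw [Submodule.Quotient.eq, nu_mem.2, toLin'_apply, mulVec_sub, mulVec_mulVec, h, one_mulVec, neg_sub])
  rw [← LinearMap.det_toLin', LinearMap.det_eq_det_mul_det _ _ hW, e1, e2, LinearMap.det_smul, LinearMap.det_id,
    LinearMap.det_id, mul_one, mul_one]

theorem nu_one (hι : Fintype.card ι ≤ 4) (h2 : (2 : F) ≠ 0) {ν : Matrix ι ι F} (h : ν * ν = 1) (hd : ν.det = 1)
    (h1 : ν ≠ 1) (h1' : ν ≠ -1) : Module.finrank F (LinearMap.ker (toLin' (ν - 1))) ≤ 2 ∧
      Module.finrank F (LinearMap.ker (toLin' (ν + 1))) ≤ 2 := by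
  have a := nu_add h2 ν
  have b : Even (Module.finrank F (LinearMap.ker (toLin' (ν + 1)))) := by
    by_contra c
    rw [nu_det h, (Nat.not_even_iff_odd.1 c).neg_one_pow] at hd
    exact h2 (by linear_combination -hd)
  have c : Module.finrank F (LinearMap.ker (toLin' (ν + 1))) ≠ 0 := fun e => h1 (by
    rw [Submodule.finrank_eq_zero] at e
    refine toLin'.injective (LinearMap.ext fun v => ?_)
    have : ν *ᵥ v - v ∈ LinearMap.ker (toLin' (ν + 1)) := by
      rw [nu_mem.2, mulVec_sub, mulVec_mulVec, h, one_mulVec, neg_sub]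
    rw [e, Submodule.mem_bot, sub_eq_zero] at this
    simpa using this)
  have d : Module.finrank F (LinearMap.ker (toLin' (ν - 1))) ≠ 0 := fun e => h1' (by
    rw [Submodule.finrank_eq_zero] at e
    refine toLin'.injective (LinearMap.ext fun v => ?_)
    have : ν *ᵥ v + v ∈ LinearMap.ker (toLin' (ν - 1)) := by
      rw [nu_mem.1, mulVec_add, mulVec_mulVec, h, one_mulVec, add_comm]
    rw [e, Submodule.mem_bot, add_eq_zero_iff_eq_neg] at this
    simpa [neg_mulVec] using this)
  obtain ⟨m, hm⟩ := b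
  omega

theorem nu_two (hι : Fintype.card ι ≤ 4) (h2 : (2 : F) ≠ 0) {ν k : Matrix ι ι F} (hk : k * k = -1)
    (h : k * ν = -(ν * k)) : Module.finrank F (LinearMap.ker (toLin' (ν - 1))) ≤ 2 ∧
      Module.finrank F (LinearMap.ker (toLin' (ν + 1))) ≤ 2 := by
  have a := nu_add h2 ν
  have inj : Function.Injective (toLin' k) := fun v w e => by
    have := congrArg (k *ᵥ ·) e
    simpa [mulVec_mulVec, hk, neg_mulVec] using this
  have key : ∀ v, ν *ᵥ k *ᵥ v = -(k *ᵥ ν *ᵥ v) := fun v => by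
    rw [mulVec_mulVec, mulVec_mulVec, h, neg_mulVec, neg_neg]
  have le : ∀ {U W : Submodule F (ι → F)}, (∀ v ∈ U, toLin' k v ∈ W) → Module.finrank F U ≤ Module.finrank F W :=
    fun hUW => LinearMap.finrank_le_finrank_of_injective (f := (toLin' k).restrict hUW) fun v w e =>
      Subtype.ext (inj (congrArg Subtype.val e))
  have b := le (U := LinearMap.ker (toLin' (ν - 1))) (W := LinearMap.ker (toLin' (ν + 1))) fun v hv => by
    rw [nu_mem.2, toLin'_apply, key, nu_mem.1.1 hv]
  have c := le (U := LinearMap.ker (toLin' (ν + 1))) (W := LinearMap.ker (toLin' (ν - 1))) fun v hv => by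
    rw [nu_mem.1, toLin'_apply, key, nu_mem.2.1 hv, mulVec_neg, neg_neg]
  omega

theorem nu_not_cyclic {G : Type*} [Group G] [Finite G] [Nontrivial G] (hG : commutator G = ⊤) (T : Sylow 2 G) :
    ¬ IsCyclic T := fun hc => by
  have odd : ¬ Odd (Nat.card G) := fun ho => by
    have := FT.odd_order_solvable ho
    exact (Group.IsSolvable.commutator_lt_top_of_nontrivial G).ne hG
  have ev : 2 ∣ Nat.card G := even_iff_two_dvd.1 (Nat.not_odd_iff_even.1 odd)
  have hp : (Nat.card G).minFac = 2 := (Nat.minFac_eq_two_iff _).2 ev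
  have c := IsCyclic.isComplement' hp hc
  have : (MonoidHom.transferSylow T (hc.normalizer_le_centralizer hp)).ker = ⊤ := by
    rw [eq_top_iff, ← hG, commutator_def, commutator_le]
    intro g _ k _
    rw [MonoidHom.mem_ker, map_commutatorElement, commutatorElement_eq_one_iff_mul_comm]
    exact hc.commGroup.mul_comm _ _
  rw [this, isComplement'_top_left] at c
  exact T.ne_bot_of_dvd_card ev c

theorem exists_nu (hι : Fintype.card ι = 3 ∨ Fintype.card ι = 4) (h2 : (2 : F) ≠ 0) {D : Subgroup (GL ι F)}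
    (hD : ⁅D, D⁆ = D) (h0 : D ≠ ⊥) (T : Sylow 2 D) : ∃ ν : Matrix ι ι F, ν * ν = 1 ∧
      Module.finrank F (LinearMap.ker (toLin' (ν - 1))) ≤ 2 ∧
      Module.finrank F (LinearMap.ker (toLin' (ν + 1))) ≤ 2 ∧
      ∀ g : GL ι F, (∀ t : D, t ∈ T → g * t = t * g) → g.1 * ν = ν * g.1 := by
  have h4 : Fintype.card ι ≤ 4 := by omega
  have : Nontrivial D := (nontrivial_iff_ne_bot D).2 h0
  have pf : commutator D = ⊤ := map_injective D.subtype_injective (by
    rw [map_subtype_commutator, hD, ← MonoidHom.range_eq_map, range_subtype])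
  have nc := nu_not_cyclic pf T
  have sl : ∀ g ∈ D, g.1.det = 1 := fun g hg => by
    have : D ≤ specialLinear ι F := hD ▸ commutator_le.2 fun g _ k _ => by
      change GeneralLinearGroup.det ⁅g, k⁆ = 1
      rw [map_commutatorElement, commutatorElement_eq_one_iff_mul_comm, mul_comm]
    exact congrArg Units.val (this hg)
  let φ : (T : Subgroup D) →* Matrix ι ι F := (Units.coeHom _).comp (D.subtype.comp (T : Subgroup D).subtype)
  have inj : Function.Injective φ := fun a b e => Subtype.ext (Subtype.ext (Units.ext e))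
  have cm : ∀ g : GL ι F, (∀ t : D, t ∈ T → g * t = t * g) → ∀ a, g.1 * φ a = φ a * g.1 := fun g hg a =>
    congrArg Units.val (hg a.1 a.2)
  by_cases hn : ∃ a, a * a = 1 ∧ a ≠ 1 ∧ φ a ≠ -1
  · obtain ⟨a, a2, a1, a1'⟩ := hn
    have e : φ a * φ a = 1 := by rw [← map_mul, a2, map_one]
    obtain ⟨k1, k2⟩ := nu_one h4 h2 e (sl _ a.1.2) (fun e => a1 (inj (e.trans (map_one φ).symm))) a1'
    exact ⟨φ a, e, k1, k2, fun g hg => cm g hg a⟩
  push Not at hn
  have two : ∀ H : Subgroup (T : Subgroup D), Nat.card H = 2 → ∀ a ∈ H, a ≠ 1 → φ a = -1 := fun H hH a ha a1 =>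
    hn a (by
      have := congrArg Subtype.val (pow_card_eq_one' (x := (⟨a, ha⟩ : H)))
      rwa [hH, pow_two] at this) a1
  have le : ∀ H K : Subgroup (T : Subgroup D), Nat.card H = 2 → Nat.card K = 2 → H ≤ K := fun H K hH hK a ha => by
    by_cases a1 : a = 1
    · rw [a1]; exact one_mem K
    have : K ≠ ⊥ := fun e => by simp [e] at hK
    obtain ⟨⟨b, hb⟩, b1⟩ := ne_bot_iff_exists_ne_one.1 this
    rwa [inj ((two H hH a ha a1).trans (two K hK b hb fun e => b1 (Subtype.ext e)).symm)]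
  obtain ⟨-, n, ⟨ψ⟩⟩ := (Cfsg.Agent.S0016.result 2 T.isPGroup' fun H K hH hK =>
    le_antisymm (le H K hH hK) (le K H hK hH)).resolve_left nc
  rcases n with _ | n
  · exact (nc (ψ.isCyclic.2 QuaternionGroup.quaternionGroup_one_isCyclic)).elim
  let χ : QuaternionGroup (2 ^ (n + 1)) →* Matrix ι ι F := φ.comp ψ.symm.toMonoidHom
  have o4 : ∀ i, χ (.xa i) * χ (.xa i) = -1 := fun i => by
    have o := QuaternionGroup.orderOf_xa (n := 2 ^ (n + 1)) i
    rw [← map_mul]
    refine hn _ ?_ fun e => ?_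
    · change ψ.symm _ * ψ.symm _ = 1
      rw [← map_mul, ← map_one ψ.symm, ← QuaternionGroup.xa_pow_four i]
      simp only [pow_succ, pow_zero, one_mul, mul_assoc]
    · have : QuaternionGroup.xa i ^ 2 = 1 := ψ.symm.injective (by rw [pow_two, map_one]; exact e)
      have := orderOf_dvd_of_pow_eq_one this
      rw [o] at this
      omega
  obtain ⟨I, hI⟩ : ∃ I, χ (.xa 0) = I := ⟨_, rfl⟩
  obtain ⟨J, hJ⟩ : ∃ J, χ (.xa (2 ^ n : ℕ)) = J := ⟨_, rfl⟩
  have II : I * I = -1 := hI ▸ o4 _
  have JJ : J * J = -1 := hJ ▸ o4 _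
  have JI : J * I = -(I * J) := by
    have e : J * I = I * I * (I * J) := by
      rw [← hI, ← hJ, ← map_mul, ← map_mul, ← map_mul, ← map_mul]
      congr 1
      simp only [QuaternionGroup.xa_mul_xa, QuaternionGroup.a_mul_a, QuaternionGroup.a.injEq]
      have : ((2 * 2 ^ (n + 1) : ℕ) : ZMod (2 * 2 ^ (n + 1))) = 0 := ZMod.natCast_self _
      push_cast at this ⊢
      linear_combination -this
    rw [e, II, neg_mul, one_mul]
  obtain ⟨p, hp⟩ := CharP.exists F
  have : NeZero p := ⟨CharP.char_ne_zero_of_finite F p⟩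
  obtain ⟨α, β, hαβ⟩ := CharP.sq_add_sq F p (-1)
  have e : ((α : F) • I + (β : F) • J) * ((α : F) • I + (β : F) • J) = 1 := by
    simp only [add_mul, mul_add, smul_mul_smul_comm, II, JJ, JI]
    have : ((α : F) * α + β * β) • (-1 : Matrix ι ι F) = 1 := by
      rw [← pow_two, ← pow_two, hαβ]; simp
    refine Eq.trans ?_ this
    module
  obtain ⟨k1, k2⟩ := nu_two h4 h2 (ν := (α : F) • I + (β : F) • J) (k := I * J)
    (by rw [mul_assoc, ← mul_assoc J, JI, neg_mul, mul_neg, mul_assoc, JJ, ← mul_assoc, II]; simp) (by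
      have e1 : I * J * I = -(I * (I * J)) := by rw [mul_assoc, JI, mul_neg]
      have e2 : J * (I * J) = -(I * J * J) := by rw [← mul_assoc, JI, neg_mul]
      rw [mul_add, add_mul, mul_smul_comm, mul_smul_comm, smul_mul_assoc, smul_mul_assoc, e1, e2]
      module)
  refine ⟨_, e, k1, k2, fun g hg => ?_⟩
  rw [mul_add, add_mul, mul_smul_comm, mul_smul_comm, smul_mul_assoc, smul_mul_assoc, ← hI, ← hJ]
  exact congrArg₂ (· + ·) (congrArg _ (cm g hg _)) (congrArg _ (cm g hg _))

end CfsgLib.Wl7
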