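import Mathlib
import Cfsg.Agent.Lib.Wl7.BlkA

/-! Three blocks of size two.  See `plans/WL7.md`. -/

set_option autoImplicit false
set_option linter.unusedSectionVars false

namespace CfsgLib.Wl7

open Matrix Subgroup Cfsg Cfsg.Geo CfsgLib.Asch CfsgLib.Wl5
open scoped commutatorElement MatrixGroups

variable {F : Type*} [Field F] [Fintype F] {ζ : Fˣ} {x y u s t z : GL (Fin 7) F} {H : Subgroup (GL (Fin 7) F)}

theorem blk (h : Std ζ x y u s t z) (hf : Fld F) (h2 : (2 : F) ≠ 0) (hx : x ∈ H) (hy : y ∈ H) (ht : t ∈ H)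
    (hz : z ∈ H) {w : GL (Fin 7) F} (hw : w ∈ H) (ew : (2 : F) • w.1 = 1 + Z7 F + U7 (ζ : F) * (1 - Z7 F)) :
    specialLinear (Fin 7) F ≤ H := by
  have h7 := h.prim.pow_eq_one
  have p2 := h.prim.pow_of_coprime 2 (by decide)
  have p4 := h.prim.pow_of_coprime 4 (by decide)
  have ne {a b : ℕ} (ha : a < 7) (hb : b < 7) (hab : a ≠ b) : (ζ : F) ^ a ≠ ζ ^ b :=
    fun e => hab (h.prim.pow_inj ha hb e)
  have P (η : F) (hη : IsPrimitiveRoot η 7) : ∃ p q : GL (Fin 2) F, p.1 = !![η, 0; 0, η⁻¹] ∧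
      (2 : F) • q.1 = !![1 + η, 1 - η; 1 - η, 1 + η] := by
    have := hη.ne_zero (by decide)
    refine ⟨GeneralLinearGroup.mkOfDetNeZero _ (by simp [det_fin_two, this]), GeneralLinearGroup.mkOfDetNeZero
      ((2 : F)⁻¹ • !![1 + η, 1 - η; 1 - η, 1 + η]) (by
        rwa [show det ((2 : F)⁻¹ • !![1 + η, 1 - η; 1 - η, 1 + η]) = η by
          rw [det_smul, det_fin_two_of, Fintype.card_fin]; field_simp; ring]), rfl, ?_⟩
    exact smul_inv_smul₀ h2 _
  obtain ⟨a1, b1, e1, f1⟩ := P _ h.prim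
  obtain ⟨a2, b2, e2, f2⟩ := P _ p2
  obtain ⟨a4, b4, e4, f4⟩ := P _ p4
  have hp : (a1, a2, a4) ∈ H.comap bet := by
    refine mem_comap.2 ((Units.ext ?_ : x = bet (a1, a2, a4)) ▸ hx)
    change _ = bm a1.1 a2.1 a4.1
    rw [h.ex, e1, e2, e4, show ((ζ : F) ^ 2)⁻¹ = ζ ^ 5 from inv_eq_of_mul_eq_one_right (by linear_combination h7),
      show ((ζ : F) ^ 4)⁻¹ = ζ ^ 3 from inv_eq_of_mul_eq_one_right (by linear_combination h7),
      show (ζ : F)⁻¹ = ζ ^ 6 from inv_eq_of_mul_eq_one_right (by linear_combination h7)]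
    ext i j; fin_cases i <;> fin_cases j <;> simp [bm, X7]
  have hq : (b4, b2, b1) ∈ H.comap bet := by
    refine mem_comap.2 ((Units.ext (smul_right_injective _ h2 ?_) : w = bet (b4, b2, b1)) ▸ hw)
    change (2 : F) • _ = (2 : F) • bm b4.1 b2.1 b1.1
    have g1 (i j) := congrFun (congrFun f1 i) j
    have g2 (i j) := congrFun (congrFun f2 i) j
    have g4 (i j) := congrFun (congrFun f4 i) j
    simp only [Matrix.smul_apply, smul_eq_mul] at g1 g2 g4
    rw [ew]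
    ext i j
    simp only [U7, Z7, Matrix.add_apply, diagonal_mul, Matrix.sub_apply, of_apply, one_apply, Matrix.smul_apply,
      smul_eq_mul]
    fin_cases i <;> fin_cases j <;> simp [bm, g1, g2, g4, sub_eq_add_neg, one_add_one_eq_two]
  have k2 := blk_half hf h2 hp hq ((MonoidHom.fst _ _).comp (MonoidHom.snd _ _)) h.prim p4 p2 p2 e1 f4 e2 f2 5
    (by linear_combination ((ζ : F) ^ 7 + 1) * h7)
    (fun e => ne (a := 6) (b := 2) (by decide) (by decide) (by decide)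
      (by linear_combination e - (ζ : F) ^ 6 * ((ζ : F) ^ 7 + 1) * h7))
    fun e => ne (a := 1) (b := 0) (by decide) (by decide) (by decide)
      (by linear_combination e - (ζ : F) * ((ζ : F) ^ 14 + (ζ : F) ^ 7 + 1) * h7)
  have k4 := blk_half hf h2 hp hq ((MonoidHom.snd _ _).comp (MonoidHom.snd _ _)) h.prim p4 p4 h.prim e1 f4 e4 f1 6
    (by linear_combination ((ζ : F) ^ 7 + 1) * h7)
    (fun e => ne (a := 3) (b := 2) (by decide) (by decide) (by decide)
      (by linear_combination e - (ζ : F) ^ 3 * ((ζ : F) ^ 14 + (ζ : F) ^ 7 + 1) * h7))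
    fun e => ne (a := 5) (b := 0) (by decide) (by decide) (by decide)
      (by linear_combination e - (ζ : F) ^ 5 * ((ζ : F) ^ 14 + (ζ : F) ^ 7 + 1) * h7)
  have k : specialLinear (Fin 2) F ≤ (H.comap bet).comap (MonoidHom.inl _ _) := by
    rw [← d2_perfect (blk_four h.prim)]
    refine commutator_le.2 fun a ha b hb => ?_
    obtain ⟨d, ⟨d1, d2⟩, rfl⟩ := k2 ha
    obtain ⟨e, ⟨e1, e2⟩, rfl⟩ := k4 hb
    rw [mem_comap, show MonoidHom.inl _ _ ⁅MonoidHom.fst _ _ d, MonoidHom.fst _ _ e⁆ = ⁅d, e⁆ from Prod.ext rfl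
      (Prod.ext (commutatorElement_eq_one_iff_mul_comm.2 (mul_comm_of_mem_scalars d2 _)).symm
        (commutatorElement_eq_one_iff_mul_comm.2 (mul_comm_of_mem_scalars e2 _).symm).symm)]
    exact mul_mem (mul_mem (mul_mem d1 e1) (inv_mem d1)) (inv_mem e1)
  refine trv h hy ht hz fun c => ⟨_, k (d2_range.le ⟨⟨!![1, c; 0, 1], by simp [det_fin_two]⟩, rfl⟩), ?_⟩
  change bm !![1, c; 0, 1] 1 1 = _
  ext i j; fin_cases i <;> fin_cases j <;> simp [bm]

end CfsgLib.Wl7
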