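import Mathlib
import Cfsg.Agent.Lib.Wl7.Defs

/-! The centraliser of an involution of type `(2, 2, 2, 1)` in block form.  See `plans/WL7.md`. -/

set_option autoImplicit false

namespace CfsgLib.Wl7.Ev

open Matrix Subgroup

variable {F : Type*} [Field F]

abbrev J : Type := Fin 3 ⊕ Unit ⊕ Fin 3

abbrev M3 (F : Type*) : Type _ := Matrix (Fin 3) (Fin 3) F

/-- block upper triangular matrices with equal corner blocks -/
def P (A : M3 F) (w : Fin 3 → F) (M : M3 F) (d : F) (φ : Fin 3 → F) : Matrix J J F :=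
  fromBlocks A (fromCols (of fun i _ => w i) M) 0 (fromBlocks (of fun _ _ => d) (of fun _ j => φ j) 0 A)

variable {A A' M M' N : M3 F} {w w' φ φ' a b : Fin 3 → F} {d d' : F} {H : Subgroup (GL J F)}

theorem P_mul : P A w M d φ * P A' w' M' d' φ' =
    P (A * A') (A *ᵥ w' + d' • w) (A * M' + vecMulVec w φ' + M * A') (d * d') (d • φ' + φ ᵥ* A') := by
  ext i j
  rcases i with i | _ | i <;> rcases j with j | _ | j <;>
    simp [P, mul_apply, Fintype.sum_sum_type, mulVec, vecMul, dotProduct, vecMulVec_apply, mul_comm, add_assoc]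

theorem P_one : P (1 : M3 F) 0 0 1 0 = 1 := by
  ext i j
  rcases i with i | _ | i <;> rcases j with j | _ | j <;> simp [P, one_apply]

theorem P_det : (P A w M d φ).det = A.det * (d * A.det) := by
  rw [P, det_fromBlocks_zero₂₁, det_fromBlocks_zero₂₁]; simp

theorem P_smul (c : F) : c • P A w M d φ = P (c • A) (c • w) (c • M) (c * d) (c • φ) := by
  ext i j
  rcases i with i | _ | i <;> rcases j with j | _ | j <;> simp [P]

theorem P_top : (P A w M d φ).toBlocks₁₁ = A := toBlocks_fromBlocks₁₁ ..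

theorem exists_P {g : Matrix J J F} (h : g * P 1 0 1 1 0 = P 1 0 1 1 0 * g) :
    ∃ w M d φ, g = P g.toBlocks₁₁ w M d φ := by
  have e (i j : J) := congrFun (congrFun h i) j
  refine ⟨fun i => g (.inl i) (.inr (.inl ())), of fun i j => g (.inl i) (.inr (.inr j)),
    g (.inr (.inl ())) (.inr (.inl ())), fun j => g (.inr (.inl ())) (.inr (.inr j)), ?_⟩
  ext i j
  rcases i with i | _ | i <;> rcases j with j | _ | j <;> try rfl
  · simpa [P, mul_apply, Fintype.sum_sum_type, one_apply] using e (.inr (.inl ())) (.inr (.inr j))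
  · simpa [P, mul_apply, Fintype.sum_sum_type, one_apply] using e (.inl i) (.inl j)
  · simpa [P, mul_apply, Fintype.sum_sum_type, one_apply] using e (.inl i) (.inr (.inl ()))
  · have := e (.inl i) (.inr (.inr j))
    simp [P, mul_apply, Fintype.sum_sum_type, one_apply] at this
    change _ = g (.inl i) (.inl j)
    linear_combination -this

/-- the action on the top block -/
noncomputable def rho {z : GL J F} (hz : z.1 = P 1 0 1 1 0) : centralizer {z} →* GL (Fin 3) F :=
  MonoidHom.toHomUnits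
    { toFun g := g.1.1.toBlocks₁₁
      map_one' := by rw [← P_top (A := 1), P_one]; rfl
      map_mul' g h := by
        obtain ⟨_, _, _, _, e1⟩ := exists_P (g := g.1.1)
          (hz ▸ congrArg Units.val (mem_centralizer_singleton_iff.1 g.2))
        obtain ⟨_, _, _, _, e2⟩ := exists_P (g := h.1.1)
          (hz ▸ congrArg Units.val (mem_centralizer_singleton_iff.1 h.2))
        change (g.1.1 * h.1.1).toBlocks₁₁ = _
        conv_lhs => rw [e1, e2, P_mul, P_top] }

theorem coe_rho {z : GL J F} (hz : z.1 = P 1 0 1 1 0) (g : centralizer {z}) :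
    (rho hz g).1 = g.1.1.toBlocks₁₁ := rfl

/-- the matrix belongs to `H` -/
def In (H : Subgroup (GL J F)) (X : Matrix J J F) : Prop := ∃ g ∈ H, g.1 = X

theorem In.mul {X Y : Matrix J J F} (h1 : In H X) (h2 : In H Y) : In H (X * Y) := by
  obtain ⟨g, hg, rfl⟩ := h1
  obtain ⟨k, hk, rfl⟩ := h2
  exact ⟨g * k, mul_mem hg hk, rfl⟩

theorem In.inv {X Y : Matrix J J F} (h1 : In H X) (h : Y * X = 1) : In H Y := by
  obtain ⟨g, hg, rfl⟩ := h1
  exact ⟨g⁻¹, inv_mem hg, (Units.inv_eq_of_mul_eq_one_left h)⟩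

/-- the unipotent radical -/
def Q (H : Subgroup (GL J F)) (w φ : Fin 3 → F) (M : M3 F) : Prop := In H (P 1 w M 1 φ)

theorem Q.mul (h1 : Q H w φ M) (h2 : Q H w' φ' M') : Q H (w + w') (φ + φ') (M + M' + vecMulVec w φ') := by
  have := In.mul h1 h2
  rw [P_mul] at this
  simp only [Matrix.one_mul, Matrix.mul_one, one_mulVec, vecMul_one, one_smul, mul_one] at this
  rwa [add_comm w', add_comm φ', show M' + vecMulVec w φ' + M = M + M' + vecMulVec w φ' by abel] at this

theorem Q.add0 (h1 : Q H w 0 M) (h2 : Q H w' 0 M') : Q H (w + w') 0 (M + M') := by simpa using h1.mul h2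

theorem Q.add1 (h1 : Q H 0 φ M) (h2 : Q H 0 φ' M') : Q H 0 (φ + φ') (M + M') := by simpa using h1.mul h2

theorem Q.add (h1 : Q H 0 0 M) (h2 : Q H 0 0 M') : Q H 0 0 (M + M') := by simpa using h1.mul h2

theorem Q.conj (hk : In H (P A a N 1 b)) (h1 : A' * A = 1) (h : Q H w φ M) :
    Q H (A *ᵥ w) (φ ᵥ* A') ((A * M + vecMulVec a φ - vecMulVec (A *ᵥ w) b) * A') := by
  obtain ⟨k, hk, ek⟩ := hk
  obtain ⟨g, hg, eg⟩ := h
  refine ⟨k * g * k⁻¹, mul_mem (mul_mem hk hg) (inv_mem hk), ?_⟩
  rw [Units.val_mul, Units.mul_inv_eq_iff_eq_mul, Units.val_mul, ek, eg, P_mul, P_mul]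
  simp only [Matrix.one_mul, Matrix.mul_one, one_mulVec, vecMul_one, one_smul, mul_one, Matrix.mul_assoc, h1,
    vecMul_vecMul]
  congr 1 <;> abel

end CfsgLib.Wl7.Ev
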