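import Mathlib
import Cfsg.Agent.Lib.Wl7.Ev2

/-! The unipotent radical of the centraliser of `z` meets `H` in `⟨z⟩`.  See `plans/WL7.md`. -/

set_option autoImplicit false

namespace CfsgLib.Wl7.Ev

open Matrix Subgroup CfsgLib.Recog

def e0 : Fin 3 → F8 := F8.ofN ∘ ![6, 4, 2]

def e1 : Fin 3 → F8 := F8.ofN ∘ ![3, 7, 5]

def S3 : M3 F8 := (!![7, 3, 5; 3, 5, 7; 5, 7, 3] : M3 ℕ).map F8.ofN

def N3 : M3 F8 := (!![5, 7, 3; 7, 3, 5; 3, 5, 7] : M3 ℕ).map F8.ofN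

def T3 : M3 F8 := !![0, 0, 1; 1, 0, 0; 0, 1, 0]

def C3 : M3 F8 := of fun i j => e0 i * e1 j

def K0 : M3 F8 := of fun i j => 1 + C3 i j + C3 i j ^ 3

def K1 : M3 F8 := of fun i j => 1 + C3 i j ^ 2 + C3 i j ^ 3

def sh (i : Fin 3) : Fin 3 := i + 2

theorem dec_u : dec cu = P (diagonal e0) 0 0 1 0 := by decide +kernel

theorem dec_s : dec cs = P S3 1 N3 1 1 := by decide +kernel

theorem dec_t : dec ct = P T3 0 0 1 0 := by decide +kernel

theorem dec_z : dec cz = P 1 0 1 1 0 := by decide +kernel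

/-- the standing hypotheses -/
structure Ctx (H : Subgroup (GL J F8)) : Prop where
  b : ∀ n ∈ L0, In H (dec n)
  noT : ¬ In H (dec cT)

variable {H : Subgroup (GL J F8)} {w φ δ : Fin 3 → F8} {M : M3 F8}

theorem Ctx.z (c : Ctx H) : Q H 0 0 1 := by
  rw [Q, ← dec_z]; exact c.b _ (by decide +kernel)

theorem Ctx.u (c : Ctx H) (h : Q H w φ M) (k : ℕ) :
    Q H (fun i => e0 i ^ k * w i) (fun i => e1 i ^ k * φ i) (of fun i j => C3 i j ^ k * M i j) := by
  induction k with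
  | zero => simp only [pow_zero, one_mul]; exact h
  | succ k ih =>
    convert ih.conj (dec_u ▸ c.b cu (by decide +kernel)) (A' := diagonal e1) (by decide +kernel) using 1
    · ext i; simp [mulVec_diagonal]; ring
    · ext i; simp [vecMul_diagonal]; ring
    · ext i j; simp [C3]; ring

theorem Ctx.t (c : Ctx H) (h : Q H w φ M) : Q H (w ∘ sh) (φ ∘ sh) (M.submatrix sh sh) := by
  convert h.conj (dec_t ▸ c.b ct (by decide +kernel)) (A' := T3ᵀ) (by decide +kernel) using 1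
  · ext i; fin_cases i <;> simp [T3, sh, mulVec, dotProduct, Fin.sum_univ_three]
  · ext i; fin_cases i <;> simp [T3, sh, vecMul, dotProduct, Fin.sum_univ_three]
  · ext i j; fin_cases i <;> fin_cases j <;> simp [T3, sh, mul_apply, vecMul, dotProduct, Fin.sum_univ_three]

theorem Ctx.s (c : Ctx H) (h : Q H w φ M) :
    Q H (S3 *ᵥ w) (φ ᵥ* S3) ((S3 * M + vecMulVec 1 φ - vecMulVec (S3 *ᵥ w) 1) * S3) :=
  h.conj (dec_s ▸ c.b cs (by decide +kernel)) (by decide +kernel)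

theorem Ctx.s0 (c : Ctx H) (h : Q H 0 0 M) : Q H 0 0 (S3 * M * S3) := by simpa using c.s h

theorem Ctx.p0 (c : Ctx H) (h : Q H w 0 M) : Q H 0 0 (K0 ⊙ M) := by
  have e : ∀ i, 1 + e0 i + e0 i ^ 3 = 0 := by decide +kernel
  have h1 := c.u h 1
  have h3 := c.u h 3
  simp only [Pi.zero_apply, mul_zero] at h1 h3
  convert (h.add0 h1).add0 h3 using 1
  · ext i; simp only [Pi.zero_apply, Pi.add_apply]; linear_combination -(w i) * e i
  · ext i j; simp [K0]; ring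

theorem Ctx.p1 (c : Ctx H) (h : Q H 0 φ M) : Q H 0 0 (K1 ⊙ M) := by
  have e : ∀ i, 1 + e1 i + e1 i ^ 2 + e1 i ^ 3 = e1 i := by decide +kernel
  have h1 := c.u h 2
  have h3 := c.u h 3
  simp only [Pi.zero_apply, mul_zero] at h1 h3
  convert (h.add1 h1).add1 h3 using 1
  · ext i; simp only [Pi.zero_apply, Pi.add_apply]; linear_combination -(φ i) * e i
  · ext i j; simp [K1]; ring

theorem Ctx.dg (c : Ctx H) (h : Q H 0 0 M) : Q H 0 0 (diagonal M.diag) := by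
  have e : ∀ i j, K1 i j * K0 i j = if i = j then 1 else 0 := by decide +kernel
  convert c.p1 (c.p0 h) using 1
  ext i j
  rw [hadamard_apply, hadamard_apply, ← mul_assoc, e, diagonal_apply]
  split_ifs with h
  · simp [h]
  · simp

theorem Ctx.D (c : Ctx H) (h : Q H 0 0 (diagonal δ)) : δ = 0 ∨ δ = 1 := by
  have e : ∀ a b d : F8, ![a, b, d] = 0 ∨ ![a, b, d] = 1 ∨ key ![a, b, d] ∨ key (![a, b, d] + 1) ∨
      key (![a, b, d] + ![a, b, d] ∘ sh) ∨ key ((![a, b, d] + ![a, b, d] ∘ sh) +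
        (S3 * diagonal (![a, b, d] + ![a, b, d] ∘ sh) * S3).diag) := by decide +kernel
  have n {δ : Fin 3 → F8} (h : Q H 0 0 (diagonal δ)) : ¬ key δ := fun k => c.noT (key_T c.b k h)
  have a {δ ε : Fin 3 → F8} (h : Q H 0 0 (diagonal δ)) (h' : Q H 0 0 (diagonal ε)) :
      Q H 0 0 (diagonal (δ + ε)) := by have := h.add h'; rwa [diagonal_add] at this
  have h1 := a h (c.dg (c.t h))
  rw [show ((diagonal δ).submatrix sh sh).diag = δ ∘ sh by ext i; simp] at h1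
  have := e (δ 0) (δ 1) (δ 2)
  rw [show ![δ 0, δ 1, δ 2] = δ by ext i; fin_cases i <;> rfl] at this
  exact this.imp_right fun h2 => h2.resolve_right (by
    rintro (k | k | k | k)
    exacts [n h k, n (a h c.z) k, n h1 k, n (a h1 (c.dg (c.s0 h1))) k])

/-- what `D` says about a conjugate -/
def dgP (M : M3 F8) : Prop := (S3 * M * S3).diag = 0 ∨ (S3 * M * S3).diag = 1

instance (M : M3 F8) : Decidable (dgP M) := by unfold dgP; infer_instance

theorem Ctx.L (c : Ctx H) (h : Q H 0 0 M) : M = 0 ∨ M = 1 := by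
  have d {M : M3 F8} (h : Q H 0 0 M) : dgP M ∧ dgP (of fun i j => C3 i j ^ 1 * M i j) := ⟨c.D (c.dg (c.s0 h)), by
    have := c.u h 1
    simp only [Pi.zero_apply, mul_zero] at this
    exact c.D (c.dg (c.s0 this))⟩
  have e0 : ∀ a b d : F8, dgP !![0, 0, K0 0 2 * a; K0 1 0 * b, 0, 0; 0, K0 2 1 * d, 0] →
      dgP (of fun i j => C3 i j ^ 1 * !![0, 0, K0 0 2 * a; K0 1 0 * b, 0, 0; 0, K0 2 1 * d, 0] i j) →
      a = 0 ∧ b = 0 ∧ d = 0 := by decide +kernel
  have e1 : ∀ a b d : F8, dgP !![0, K1 0 1 * a, 0; 0, 0, K1 1 2 * b; K1 2 0 * d, 0, 0] →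
      dgP (of fun i j => C3 i j ^ 1 * !![0, K1 0 1 * a, 0; 0, 0, K1 1 2 * b; K1 2 0 * d, 0, 0] i j) →
      a = 0 ∧ b = 0 ∧ d = 0 := by decide +kernel
  have k : K0 0 1 = 0 ∧ K0 1 2 = 0 ∧ K0 2 0 = 0 ∧ K1 0 2 = 0 ∧ K1 1 0 = 0 ∧ K1 2 1 = 0 := by decide +kernel
  have aa : ∀ a : F8, a + a = 0 := by decide +kernel
  have h1 := h.add (c.dg h)
  have h2 := d (c.p0 h1)
  have h3 := d (c.p1 h1)
  rw [show K0 ⊙ (M + diagonal M.diag) = !![0, 0, K0 0 2 * M 0 2; K0 1 0 * M 1 0, 0, 0; 0, K0 2 1 * M 2 1, 0] by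
    ext i j; fin_cases i <;> fin_cases j <;> simp [k, aa]] at h2
  rw [show K1 ⊙ (M + diagonal M.diag) = !![0, K1 0 1 * M 0 1, 0; 0, 0, K1 1 2 * M 1 2; K1 2 0 * M 2 0, 0, 0] by
    ext i j; fin_cases i <;> fin_cases j <;> simp [k, aa]] at h3
  have h4 := e0 _ _ _ h2.1 h2.2
  have h5 := e1 _ _ _ h3.1 h3.2
  have h6 : M = diagonal M.diag := by ext i j; fin_cases i <;> fin_cases j <;> simp [h4, h5]
  exact (c.D (c.dg h)).imp (fun e => by rw [h6, e]; exact diagonal_zero) fun e => by rw [h6, e]; exact diagonal_one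

end CfsgLib.Wl7.Ev
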