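import Mathlib
import Cfsg.Agent.Lib.Wl7.Ev3

/-! The unipotent radical of the centraliser of `z` meets `H` in `⟨z⟩`, second part.  See `plans/WL7.md`. -/

set_option autoImplicit false

namespace CfsgLib.Wl7.Ev

open Matrix Subgroup CfsgLib.Recog

variable {H : Subgroup (GL J F8)} {w φ : Fin 3 → F8} {M : M3 F8}

theorem avg_cir (M : M3 F8) : M + M.submatrix sh sh + (M.submatrix sh sh).submatrix sh sh =
    cir (M 0 0 + M 2 2 + M 1 1) (M 0 1 + M 2 0 + M 1 2) (M 0 2 + M 2 1 + M 1 0) := by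
  ext i j; fin_cases i <;> fin_cases j <;> simp [cir, sh] <;> ring

theorem avg_vec (w : Fin 3 → F8) : w + w ∘ sh + (w ∘ sh) ∘ sh = fun _ => w 0 + w 1 + w 2 := by
  ext i; fin_cases i <;> simp [sh] <;> ring

theorem Ctx.G0 (c : Ctx H) (h : Q H w 0 M) : w = 0 := by
  have k {w : Fin 3 → F8} {M : M3 F8} (h : Q H w 0 M) : w 0 + w 1 + w 2 = 0 := by
    have e : ∀ a p q r : F8, (K0 ⊙ cir p q r = 0 ∨ K0 ⊙ cir p q r = 1) →
        (K0 ⊙ ((S3 * cir p q r + vecMulVec 1 0 - vecMulVec (S3 *ᵥ fun _ => a) 1) * S3) = 0 ∨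
          K0 ⊙ ((S3 * cir p q r + vecMulVec 1 0 - vecMulVec (S3 *ᵥ fun _ => a) 1) * S3) = 1) →
        a = 0 ∨ (a = 1 ∧ (cir p q r = cir 0 1 0 ∨ cir p q r + 1 = cir 0 1 0)) := by decide +kernel
    have h1 := (h.add0 (c.t h)).add0 (c.t (c.t h))
    rw [avg_cir, avg_vec] at h1
    have h2 := c.s h1
    rw [zero_vecMul] at h2
    refine (e _ _ _ _ (c.L (c.p0 h1)) (c.L (c.p0 h2))).resolve_right fun ⟨e1, e2⟩ => ?_
    rw [e1] at h1
    obtain ⟨N, h3, h4, h5⟩ := cert0 c.b (by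
      rcases e2 with e2 | e2
      · rw [e2] at h1; exact h1
      · have := h1.add0 c.z
        rw [e2, add_zero] at this
        exact this)
    exact (c.L h3).elim h4 h5
  have e : ∀ a b d : F8, a + b + d = 0 → e0 0 ^ 1 * a + e0 1 ^ 1 * b + e0 2 ^ 1 * d = 0 →
      e0 0 ^ 2 * a + e0 1 ^ 2 * b + e0 2 ^ 2 * d = 0 → ![a, b, d] = 0 := by decide +kernel
  have h1 := c.u h 1
  have h2 := c.u h 2
  simp only [Pi.zero_apply, mul_zero] at h1 h2
  rw [← e _ _ _ (k h) (k h1) (k h2)]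
  ext i; fin_cases i <;> rfl

theorem Ctx.G1 (c : Ctx H) (h : Q H 0 φ M) : φ = 0 := by
  have k {φ : Fin 3 → F8} {M : M3 F8} (h : Q H 0 φ M) : φ 0 + φ 1 + φ 2 = 0 := by
    have e : ∀ a p q r : F8, (K1 ⊙ cir p q r = 0 ∨ K1 ⊙ cir p q r = 1) →
        (K1 ⊙ ((S3 * cir p q r + vecMulVec 1 (fun _ => a) - vecMulVec 0 1) * S3) = 0 ∨
          K1 ⊙ ((S3 * cir p q r + vecMulVec 1 (fun _ => a) - vecMulVec 0 1) * S3) = 1) →
        a = 0 ∨ (a = 1 ∧ (cir p q r = cir 0 0 1 ∨ cir p q r + 1 = cir 0 0 1)) := by decide +kernel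
    have h1 := (h.add1 (c.t h)).add1 (c.t (c.t h))
    rw [avg_cir, avg_vec] at h1
    have h2 := c.s h1
    rw [mulVec_zero] at h2
    refine (e _ _ _ _ (c.L (c.p1 h1)) (c.L (c.p1 h2))).resolve_right fun ⟨e1, e2⟩ => ?_
    rw [e1] at h1
    obtain ⟨N, h3, h4, h5⟩ := cert1 c.b (by
      rcases e2 with e2 | e2
      · rw [e2] at h1; exact h1
      · have := h1.add1 c.z
        rw [e2, add_zero] at this
        exact this)
    exact (c.L h3).elim h4 h5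
  have e : ∀ a b d : F8, a + b + d = 0 → e1 0 ^ 1 * a + e1 1 ^ 1 * b + e1 2 ^ 1 * d = 0 →
      e1 0 ^ 2 * a + e1 1 ^ 2 * b + e1 2 ^ 2 * d = 0 → ![a, b, d] = 0 := by decide +kernel
  have h1 := c.u h 1
  have h2 := c.u h 2
  simp only [Pi.zero_apply, mul_zero] at h1 h2
  rw [← e _ _ _ (k h) (k h1) (k h2)]
  ext i; fin_cases i <;> rfl

theorem Ctx.fin (c : Ctx H) (h : Q H w φ M) : w = 0 ∧ φ = 0 ∧ (M = 0 ∨ M = 1) := by
  have aa : ∀ a : F8, a + a = 0 := by decide +kernel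
  have h1 := h.mul h
  rw [show w + w = 0 from funext fun i => aa _, show φ + φ = 0 from funext fun i => aa _,
    show M + M = 0 from Matrix.ext fun i j => aa _, zero_add] at h1
  have h2 : w = 0 ∨ φ = 0 := (c.L h1).elim vecMulVec_eq_zero.1 fun e => by
    have e1 := congrFun (congrFun e 0) 0
    have e2 := congrFun (congrFun e 0) 1
    have e3 := congrFun (congrFun e 1) 1
    simp only [vecMulVec_apply, one_apply_eq, one_apply_ne (show (0 : Fin 3) ≠ 1 by decide)] at e1 e2 e3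
    exact absurd (show (1 : F8) = 0 by linear_combination -e1 - w 0 * φ 0 * e3 + w 1 * φ 0 * e2) one_ne_zero
  rcases h2 with rfl | rfl
  · obtain rfl := c.G1 h
    exact ⟨rfl, rfl, c.L h⟩
  · obtain rfl := c.G0 h
    exact ⟨rfl, rfl, c.L h⟩

end CfsgLib.Wl7.Ev
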