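import Mathlib
import Cfsg.Agent.Lib.Wl7.Defs

/-! The involution `z` is isolated.  See `plans/WL7.md`. -/

set_option autoImplicit false
set_option linter.unusedSectionVars false

namespace CfsgLib.Wl7

open Matrix Subgroup Cfsg Cfsg.Geo CfsgLib.Asch CfsgLib.Wl5
open scoped commutatorElement MatrixGroups

namespace IsoP

def gL : SL(3, ZMod 2) := ⟨!![0, 0, 1; 1, 0, 1; 0, 1, 0], by decide +kernel⟩
def cL : SL(3, ZMod 2) := ⟨!![1, 1, 0; 0, 1, 0; 0, 0, 1], by decide +kernel⟩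
def tL : SL(3, ZMod 2) := ⟨!![1, 0, 0; 0, 0, 1; 0, 1, 1], by decide +kernel⟩

theorem key1 : ∀ a b c d e f g h i : ZMod 2,
    !![a, b, c; d, e, f; g, h, i] * !![a, b, c; d, e, f; g, h, i] = 1 → !![a, b, c; d, e, f; g, h, i] ≠ 1 →
    ∃ k < 7, ∃ j < 3, !![a, b, c; d, e, f; g, h, i] * (gL.1 ^ k * tL.1 ^ j) = gL.1 ^ k * tL.1 ^ j * cL.1 := by
  decide +kernel

theorem key2 : ∀ a b c d e f g h i : ZMod 2,
    a * e * i - a * f * h - b * d * i + b * f * g + c * d * h - c * e * g = 1 →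
    !![a, b, c; d, e, f; g, h, i] ^ 3 = 1 ∨ !![a, b, c; d, e, f; g, h, i] ^ 4 = 1 ∨
      !![a, b, c; d, e, f; g, h, i] ^ 7 = 1 := by
  decide +kernel

theorem cen {a : SL(3, ZMod 2)} (h : a ∈ center SL(3, ZMod 2)) : a = 1 := by
  obtain ⟨r, h1, h2⟩ := Matrix.SpecialLinearGroup.mem_center_iff.1 h
  obtain rfl : r = 1 := by clear h2; revert r; decide
  exact Subtype.ext (h2.symm.trans (map_one _))

theorem ord (a : PSL(3, ZMod 2)) : a ^ 3 = 1 ∨ a ^ 4 = 1 ∨ a ^ 7 = 1 := by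
  obtain ⟨a, rfl⟩ := QuotientGroup.mk_surjective a
  have e := eta_fin_three a.1
  have d := a.2
  rw [det_fin_three] at d
  have k := key2 _ _ _ _ _ _ _ _ _ d
  rw [← e] at k
  have f : ∀ n : ℕ, a.1 ^ n = 1 → (a : PSL(3, ZMod 2)) ^ n = 1 := fun n hn => by
    rw [← QuotientGroup.mk_pow, show a ^ n = 1 from Subtype.ext hn, QuotientGroup.mk_one]
  exact k.imp (f 3) (Or.imp (f 4) (f 7))

theorem conj {a : PSL(3, ZMod 2)} (ha : a ≠ 1) (ha2 : a * a = 1) : ∃ g : PSL(3, ZMod 2), a * g = g * (cL : _) := by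
  obtain ⟨a, rfl⟩ := QuotientGroup.mk_surjective a
  have e := eta_fin_three a.1
  have h1 : a.1 * a.1 = 1 := congrArg Subtype.val (cen ((QuotientGroup.eq_one_iff _).1 ha2))
  have h2 : a.1 ≠ 1 := fun h => ha (by rw [show a = 1 from Subtype.ext h, QuotientGroup.mk_one])
  rw [e] at h1 h2
  obtain ⟨k, -, j, -, h⟩ := key1 _ _ _ _ _ _ _ _ _ h1 h2
  rw [← e] at h
  have h' : a * (gL ^ k * tL ^ j) = gL ^ k * tL ^ j * cL := Subtype.ext h
  exact ⟨(gL ^ k * tL ^ j : SL(3, ZMod 2)), by rw [← QuotientGroup.mk_mul, h', QuotientGroup.mk_mul]⟩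

end IsoP

theorem l32_conj {a b : PSL(3, ZMod 2)} (ha : a ≠ 1) (ha2 : a * a = 1) (hb : b ≠ 1) (hb2 : b * b = 1) :
    ∃ g, g * a * g⁻¹ = b := by
  obtain ⟨g, hg⟩ := IsoP.conj ha ha2
  obtain ⟨k, hk⟩ := IsoP.conj hb hb2
  refine ⟨k * g⁻¹, ?_⟩
  rw [eq_mul_inv_of_mul_eq hg, eq_mul_inv_of_mul_eq hk]
  group

theorem l32_eight (a : PSL(3, ZMod 2)) (h : a ^ 8 = 1) : a ^ 4 = 1 := by
  obtain h1 | h1 | h1 := IsoP.ord a
  · have : a = 1 := by
      have e : a ^ 9 = a ^ 8 * a := pow_succ a 8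
      rw [h, one_mul, show 9 = 3 * 3 from rfl, pow_mul, h1, one_pow] at e
      exact e.symm
    rw [this, one_pow]
  · exact h1
  · have : a = 1 := by rw [pow_succ a 7, h1, one_mul] at h; exact h
    rw [this, one_pow]

theorem l32_exp (a : PSL(3, ZMod 2)) : a ^ 84 = 1 := by
  obtain h1 | h1 | h1 := IsoP.ord a
  · rw [show 84 = 3 * 28 from rfl, pow_mul, h1, one_pow]
  · rw [show 84 = 4 * 21 from rfl, pow_mul, h1, one_pow]
  · rw [show 84 = 7 * 12 from rfl, pow_mul, h1, one_pow]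

theorem Good.iso {G : Type*} [Group G] {H : Subgroup G} {z : G} (h : Good H z) (hz : z ∈ H) (hzz : z * z = 1)
    {g : G} (hg : g ∈ H) (hc : Commute z (g * z * g⁻¹)) : g * z * g⁻¹ = z := by
  obtain ⟨π, hs, hk, k, k4, k2⟩ := h
  by_contra hne
  have hz1 : z ≠ 1 := fun e => hne (by rw [e, mul_one, mul_inv_cancel])
  have z8 : ∀ e : ↥(H ⊓ centralizer {z}), (e : G) ^ 8 = 1 → π (e ^ 4) = 1 := fun e he => by
    rw [map_pow]
    exact l32_eight _ (by rw [← map_pow, show e ^ 8 = 1 from Subtype.ext he, map_one])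
  have k8 : (k : G) ^ 8 = 1 := by rw [show 8 = 4 + 4 from rfl, pow_add, k4, hzz]
  let z' : ↥(H ⊓ centralizer {z}) :=
    ⟨g * z * g⁻¹, H.mul_mem (H.mul_mem hg hz) (H.inv_mem hg), mem_centralizer_singleton_iff.2 hc.eq.symm⟩
  have zz' : z' * z' = 1 := Subtype.ext (by
    change g * z * g⁻¹ * (g * z * g⁻¹) = 1
    rw [show g * z * g⁻¹ * (g * z * g⁻¹) = g * (z * z) * g⁻¹ by group, hzz, mul_one, mul_inv_cancel])
  have n1 : π z' ≠ 1 := fun e => ((hk z' e).2 zz').elim (fun a => hz1 (by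
    have := congrArg Subtype.val a
    change g * z * g⁻¹ = 1 at this
    rwa [mul_inv_eq_one, mul_eq_left] at this)) hne
  obtain ⟨e, he⟩ := l32_conj k2 (by rw [← map_mul, ← pow_add]; exact z8 k k8) n1 (by rw [← map_mul, zz', map_one])
  obtain ⟨e, rfl⟩ := hs e
  have hd : π ((e * k ^ 2 * e⁻¹)⁻¹ * z') = 1 := by
    rw [map_mul, map_inv, map_mul, map_mul, map_inv, he, inv_mul_cancel]
  have c1 : (e * k * e⁻¹) * z' = z' * (e * k * e⁻¹) := by
    have h1 := (hk _ hd).1 (e * k * e⁻¹)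
    have h2 : z' = (e * k ^ 2 * e⁻¹) * ((e * k ^ 2 * e⁻¹)⁻¹ * z') := by group
    generalize (e * k ^ 2 * e⁻¹)⁻¹ * z' = d at h1 h2
    rw [h2, mul_assoc _ d, h1, pow_two]
    group
  have c2 : ((e : G) * k * (e : G)⁻¹) * (g * z * g⁻¹) = (g * z * g⁻¹) * ((e : G) * k * (e : G)⁻¹) :=
    congrArg Subtype.val c1
  have ez : (e : G) * z * (e : G)⁻¹ = z := by
    rw [mem_centralizer_singleton_iff.1 e.2.2, mul_inv_cancel_right]
  let k' : ↥(H ⊓ centralizer {z}) := ⟨g⁻¹ * ((e : G) * k * (e : G)⁻¹) * g,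
    H.mul_mem (H.mul_mem (H.inv_mem hg) (e * k * e⁻¹).2.1) hg, mem_centralizer_singleton_iff.2 (by
      generalize (e : G) * k * (e : G)⁻¹ = m at c2
      calc g⁻¹ * m * g * z = g⁻¹ * (m * (g * z * g⁻¹)) * g := by group
        _ = _ := by rw [c2]; group)⟩
  have p4 : ((k' ^ 4 : ↥(H ⊓ centralizer {z})) : G) = g⁻¹ * z * g := by
    change (g⁻¹ * ((e : G) * k * (e : G)⁻¹) * g) ^ 4 = _
    have := conj_pow (a := g⁻¹) (b := (e : G) * k * (e : G)⁻¹) (i := 4)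
    rwa [conj_pow (a := (e : G)), k4, ez, inv_inv] at this
  have p8 : k' ^ 4 * k' ^ 4 = 1 := Subtype.ext (by
    rw [Subgroup.coe_mul, p4, show g⁻¹ * z * g * (g⁻¹ * z * g) = g⁻¹ * (z * z) * g by group, hzz]
    simp)
  obtain a | a := (hk _ (z8 k' (by
    rw [show 8 = 4 + 4 from rfl, pow_add]; exact congrArg Subtype.val p8))).2 p8
  · rw [a] at p4
    exact hz1 (by
      calc z = g * (g⁻¹ * z * g) * g⁻¹ := by group
        _ = 1 := by rw [← p4]; simp)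
  · rw [p4] at a
    exact hne (by
      calc g * z * g⁻¹ = g * (g⁻¹ * z * g) * g⁻¹ := by rw [a]
        _ = z := by group)

end CfsgLib.Wl7
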