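import Mathlib
import Cfsg.Agent.Lib.Wl7.Defs
import Cfsg.Agent.Lib.Wl5.Weil

/-! Heisenberg pairs of order seven.  See `plans/WL7.md`. -/

set_option autoImplicit false
set_option linter.unusedSectionVars false

namespace CfsgLib.Wl7

open Matrix Subgroup Cfsg Cfsg.Geo CfsgLib.Asch CfsgLib.Wl5
open scoped commutatorElement MatrixGroups

variable {F : Type*} [Field F] [Finite F] {ι : Type} [Fintype ι] [DecidableEq ι] {ζ : Fˣ} {x y g u s : GL ι F}
  {N : Subgroup (GL ι F)}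

theorem heis_seven : Nat.Prime 7 := by norm_num

theorem heis_eig7 {V : Type*} [AddCommGroup V] [Module F V] {z : F} (hz : IsPrimitiveRoot z 7) (T : V →ₗ[F] V)
    (hT : ∀ a, (T ^ 7) a = a) {W U : Submodule F V} (hW : ∀ a ∈ W, T a ∈ W) {a : V} (ha : a ∈ W)
    (hU : a ∉ U) : ∃ b ∈ W, b ∉ U ∧ ∃ i : ℕ, z ^ i • T b = b := by
  have h7 : z ^ 7 = 1 := hz.pow_eq_one
  have n7 : (7 : F) ≠ 0 := by exact_mod_cast (hz.neZero' (n := 7)).out
  let P : ℕ → V := fun i => ∑ k ∈ Finset.range 7, (z ^ i) ^ k • (T ^ k) a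
  have hk : ∀ k : ℕ, (T ^ k) a ∈ W := fun k => by
    induction k with
    | zero => exact ha
    | succ k ih => rw [pow_succ', Module.End.mul_apply]; exact hW _ ih
  have hP : ∀ i, P i ∈ W := fun i => W.sum_mem fun k _ => W.smul_mem _ (hk k)
  have e : ∀ i, z ^ i • T (P i) = P i := fun i => by
    have h1 : (z ^ i) ^ 7 = 1 := by rw [← pow_mul, mul_comm, pow_mul, h7, one_pow]
    have h2 : z ^ i • T (P i) = ∑ k ∈ Finset.range 7, (z ^ i) ^ (k + 1) • (T ^ (k + 1)) a := by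
      simp only [P, map_sum, map_smul, Finset.smul_sum, smul_smul, pow_succ', Module.End.mul_apply]
    have h3 := Finset.sum_range_succ' (fun k => (z ^ i) ^ k • (T ^ k) a) 7
    rw [Finset.sum_range_succ, h1, hT, pow_zero, pow_zero, Module.End.one_apply, add_left_inj] at h3
    rw [h2, ← h3]
  by_contra hn
  have k : ∀ i, P i ∈ U := fun i => by_contra fun c => hn ⟨_, hP i, c, i, e i⟩
  have : ∑ i ∈ Finset.range 7, P i = (7 : F) • a := by
    simp only [P]
    rw [Finset.sum_comm, Finset.sum_eq_single 0]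
    · simp [← Nat.cast_smul_eq_nsmul F]
    · intro k hk k0
      have hp : IsPrimitiveRoot (z ^ k) 7 := hz.pow_of_coprime k
        ((heis_seven.coprime_iff_not_dvd.2 (Nat.not_dvd_of_pos_of_lt (Nat.pos_of_ne_zero k0) (Finset.mem_range.1 hk))).symm)
      rw [← Finset.sum_smul, Finset.sum_congr rfl fun i _ => (show (z ^ i) ^ k = (z ^ k) ^ i by
        rw [← pow_mul, ← pow_mul, mul_comm]), hp.geom_sum_eq_zero (by norm_num), zero_smul]
    · simp
  refine hU ((U.smul_mem_iff n7).1 ?_)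
  rw [← this]
  exact U.sum_mem fun i _ => k i

theorem HP7.z7 (h : HP7 ζ x y) : ζ ^ 7 = 1 := Units.ext h.prim.pow_eq_one

theorem HP7.exists_pow (h : HP7 ζ x y) {c : Fˣ} (hc : sc ι c ^ 7 = 1) : ∃ i : ℕ, sc ι c = sc ι (ζ ^ i) := by
  rcases isEmpty_or_nonempty ι with _ | _
  · exact ⟨0, Units.ext (Subsingleton.elim _ _)⟩
  have : c ^ 7 = 1 := sc_injective (ι := ι) (by rw [map_pow, hc, map_one])
  obtain ⟨i, -, e⟩ := h.prim.eq_pow_of_pow_eq_one (ξ := (c : F)) (congrArg Units.val this)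
  exact ⟨i, congrArg _ (Units.ext e.symm)⟩

theorem HP7.sc_mem (h : HP7 ζ x y) : sc ι ζ ∈ closure {x, y} := by
  have hx : x ∈ closure {x, y} := subset_closure (by simp)
  have hy : y ∈ closure {x, y} := subset_closure (by simp)
  rw [← mul_inv_eq_iff_eq_mul.2 h.comm]
  exact mul_mem (mul_mem hx hy) (inv_mem (mul_mem hy hx))

theorem HP7.pi_comm (h : HP7 ζ x y) : heisPi ι F x * heisPi ι F y = heisPi ι F y * heisPi ι F x := by
  rw [← map_mul, h.comm, map_mul, heis_pi_sc, one_mul, map_mul]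

theorem HP7.comm_mem (h : HP7 ζ x y) {a b : GL ι F} (ha : a ∈ closure {x, y}) (hb : b ∈ closure {x, y}) :
    a * b * a⁻¹ * b⁻¹ ∈ scalars ι F := by
  have k : ∀ c : GL ι F, Commute (heisPi ι F x) (heisPi ι F c) → Commute (heisPi ι F y) (heisPi ι F c) →
      ∀ d ∈ closure {x, y}, Commute (heisPi ι F d) (heisPi ι F c) := fun c h1 h2 d hd => by
    induction hd using closure_induction with
    | mem d hd => rcases hd with rfl | rfl <;> assumption
    | one => rw [map_one]; exact Commute.one_left _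
    | mul d e _ _ k1 k2 => rw [map_mul]; exact k1.mul_left k2
    | inv d _ k1 => rw [map_inv]; exact k1.inv_left
  exact heis_comm_iff.2 (k b (k x rfl h.pi_comm.symm b hb).symm (k y h.pi_comm rfl b hb).symm a ha)

theorem HP7.pow7 (h : HP7 ζ x y) (hg : g ∈ closure {x, y}) : g ^ 7 = 1 := by
  induction hg using closure_induction with
  | mem d hd => rcases hd with rfl | rfl; exacts [h.x7, h.y7]
  | one => exact one_pow _
  | mul d e hd he k1 k2 =>
    have := mul_pow_of_comm (x := d) (y := e) (r := 7) heis_seven (h.comm_mem he hd) (k2 ▸ one_mem _) 1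
    norm_num at this
    rw [this, k1, k2, one_mul]
  | inv d _ k1 => rw [inv_pow, k1, inv_one]

theorem HP7.comm_pow (h : HP7 ζ x y) (i j : ℕ) : x ^ i * y ^ j = sc ι (ζ ^ (i * j)) * (y ^ j * x ^ i) := by
  have c : ∀ (a : Fˣ) (g : GL ι F), g * sc ι a = sc ι a * g := fun a g => (mul_comm_of_mem_scalars (Asch.sc_mem a) g).symm
  have k : ∀ j : ℕ, x * y ^ j = sc ι (ζ ^ j) * (y ^ j * x) := fun j => by
    induction j with
    | zero => simp
    | succ j ih =>
      rw [pow_succ, ← mul_assoc, ih, mul_assoc, mul_assoc, h.comm, ← mul_assoc (y ^ j), c, pow_succ, map_mul]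
      simp only [mul_assoc]
  induction i with
  | zero => simp
  | succ i ih =>
    rw [pow_succ, mul_assoc, k, ← mul_assoc, c, mul_assoc, ← mul_assoc (x ^ i), ih, add_mul, one_mul, pow_add,
      mul_comm (ζ ^ (i * j)), map_mul]
    simp only [mul_assoc]

theorem HP7.mat_of_comm (h : HP7 ζ x y) {b : Matrix ι ι F} {i j : ℕ} (h1 : (ζ : F) ^ i • cj x b = b)
    (h2 : (ζ : F) ^ j • cj y b = b) : ∃ (c : F) (k l : ℕ), b = c • ((x ^ k * y ^ l : GL ι F) : Matrix ι ι F) := by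
  have c : ∀ (a : Fˣ) (g : GL ι F), g * sc ι a = sc ι a * g := fun a g => (mul_comm_of_mem_scalars (Asch.sc_mem a) g).symm
  have z : ∀ n : ℕ, ζ ^ (7 * n) = 1 := fun n => by rw [pow_mul, h.z7, one_pow]
  set w := x ^ j * y ^ (6 * i) with hw
  have e1 : x * w = sc ι (ζ ^ (6 * i)) * (w * x) := by
    have := h.comm_pow 1 (6 * i)
    rw [pow_one, one_mul] at this
    rw [hw, ← mul_assoc, ← pow_succ', pow_succ, mul_assoc, this, ← mul_assoc, c]
    simp only [mul_assoc]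
  have e2 : sc ι (ζ ^ j) * (y * w) = w * y := by
    have := h.comm_pow j 1
    rw [pow_one, mul_one] at this
    rw [hw, ← mul_assoc y, ← mul_assoc, ← this, mul_assoc, mul_assoc, ← pow_succ', pow_succ]
  have k : ∀ {t : GL ι F} {m : ℕ}, (ζ : F) ^ m • cj t b = b → sc ι (ζ ^ m) * (t * w) = w * t →
      cj t (b * (w⁻¹ : GL ι F)) = b * (w⁻¹ : GL ι F) := fun {t m} a1 a2 => by
    have : t * w⁻¹ * t⁻¹ = sc ι (ζ ^ m) * w⁻¹ := by
      rw [← c, eq_comm, ← mul_inv_eq_one, show w⁻¹ * sc ι (ζ ^ m) * (t * w⁻¹ * t⁻¹)⁻¹ =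
        w⁻¹ * (sc ι (ζ ^ m) * (t * w)) * t⁻¹ by group, a2]; group
    rw [map_mul, cj_coe, this, Units.val_mul, coe_sc, smul_mul_assoc, one_mul, mul_smul_comm, ← smul_mul_assoc,
      Units.val_pow_eq_pow_val, a1]
  have a1 := k h1 (by rw [e1, ← mul_assoc, ← map_mul, ← pow_add, show i + 6 * i = 7 * i by ring, z, map_one, one_mul])
  have a2 := k h2 e2
  obtain ⟨d, hd⟩ := scalar_of_comm_env h.env_top (x := b * (w⁻¹ : GL ι F)) fun t ht => by
    refine (cj_eq_iff.1 ?_).symm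
    induction ht using closure_induction with
    | mem d hd => rcases hd with rfl | rfl <;> assumption
    | one => simp [cj_apply]
    | mul d e _ _ k1 k2 => rw [cj_mul, k2, k1]
    | inv d _ k1 => rw [← cj_symm_apply, AlgEquiv.symm_apply_eq, k1]
  exact ⟨d, j, 6 * i, by rw [← hw, ← one_mul (w : Matrix ι ι F), ← smul_mul_assoc, ← hd, mul_assoc, Units.inv_mul, mul_one]⟩

theorem HP7.mem_of_comm (h : HP7 ζ x y) (h1 : g * x * g⁻¹ * x⁻¹ ∈ scalars ι F)
    (h2 : g * y * g⁻¹ * y⁻¹ ∈ scalars ι F) : ∃ (c : Fˣ) (i j : ℕ), g = sc ι c * (x ^ i * y ^ j) := by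
  have k : ∀ {t : GL ι F}, t ^ 7 = 1 → g * t * g⁻¹ * t⁻¹ ∈ scalars ι F → ∃ i : ℕ, (ζ : F) ^ i • cj t g.1 = g.1 := by
    rintro t t7 ⟨c, hc⟩
    have hc : sc ι c = g * t * g⁻¹ * t⁻¹ := hc
    have e : sc ι c * t = g * t * g⁻¹ := by rw [hc]; group
    obtain ⟨i, hi⟩ := h.exists_pow (c := c) (by
      have := congrArg (· ^ 7) e
      simp only [conj_pow, (commute_of_mem_scalars (Asch.sc_mem c) t).symm.mul_pow, t7] at this
      simpa using this)
    refine ⟨i, ?_⟩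
    have : sc ι (ζ ^ i) * (t * g * t⁻¹) = g := by rw [← hi, ← mul_assoc, ← mul_assoc, e]; group
    have := congrArg Units.val this
    rwa [Units.val_mul, coe_sc, smul_mul_assoc, one_mul, Units.val_pow_eq_pow_val, ← cj_coe] at this
  obtain ⟨i, hi⟩ := k h.x7 h1
  obtain ⟨j, hj⟩ := k h.y7 h2
  obtain ⟨c, a, b, e⟩ := h.mat_of_comm hi hj
  obtain ⟨d, hd⟩ := mem_scalars_iff_sc.1 (mem_scalars_of_eq_smul (g := g * (x ^ a * y ^ b)⁻¹) (c := c) (by
    rw [Units.val_mul, e, smul_mul_assoc, Units.mul_inv]))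
  exact ⟨d, a, b, by rw [hd, inv_mul_cancel_right]⟩

theorem HP7.mem_of_pow (h : HP7 ζ x y) (h1 : g ∈ closure {x, y} ⊔ scalars ι F) (h2 : g ^ 7 = 1) :
    g ∈ closure {x, y} := by
  obtain ⟨r, hr, _, ⟨c, rfl⟩, rfl⟩ := mem_sup_of_normal_right.1 h1
  change r * sc ι c ∈ _
  change (r * sc ι c) ^ 7 = 1 at h2
  rw [(commute_of_mem_scalars (Asch.sc_mem c) r).mul_pow, h.pow7 hr, one_mul] at h2
  obtain ⟨i, hi⟩ := h.exists_pow h2
  rw [hi, map_pow]
  exact mul_mem hr (pow_mem h.sc_mem i)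

theorem HP7.mem_normalizer (h : HP7 ζ x y) (h1 : g * x * g⁻¹ ∈ closure {x, y})
    (h2 : g * y * g⁻¹ ∈ closure {x, y}) : g ∈ normalizer (closure {x, y} : Subgroup (GL ι F)) := by
  have _ := h
  refine Tech.mem_normalizer_of_cj_le ?_
  rw [Tech.cj, map_le_iff_le_comap, closure_le]
  rintro _ (rfl | rfl) <;> assumption

theorem HP7.mem_of_nrm (h : HP7 ζ x y) (hu : u ∈ N) (hs : s ∈ N)
    (h1 : u * x * u⁻¹ = x) {c : Fˣ} (h2 : u * y * u⁻¹ = sc ι c * (x * y)) (h3 : s * x * s⁻¹ = y⁻¹)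
    {S : Subgroup (GL ι F)} (hS : scalars ι F ≤ S) (hn : Nrm N S) {k l : ℕ} (hw : x ^ k * y ^ l ∈ S)
    (h0 : x ^ k * y ^ l ∉ scalars ι F) : x ∈ S ∧ y ∈ S := by
  have p : ∀ m : ℕ, x ^ m ∈ S → ¬ 7 ∣ m → x ∈ S := fun m hm d => by
    obtain ⟨n, hn⟩ := exists_pow_eq_self_of_coprime (x := x) (n := m)
      (((Nat.Prime.coprime_iff_not_dvd heis_seven).2 d).symm.coprime_dvd_right (orderOf_dvd_of_pow_eq_one h.x7))
    exact hn ▸ pow_mem hm n
  have hx : x ∈ S := by
    by_cases d : 7 ∣ l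
    · obtain ⟨l, rfl⟩ := d
      rw [pow_mul, h.y7, one_pow, mul_one] at hw h0
      refine p k hw ?_
      rintro ⟨k, rfl⟩
      exact h0 (by rw [pow_mul, h.x7, one_pow]; exact one_mem _)
    · refine p l ((heis_mem hS).1 ?_) d
      have := (heis_mem hS).2 (mul_mem (inv_mem hw) (hn u hu _ hw))
      have c : Commute (heisPi ι F x) (heisPi ι F y) := h.pi_comm
      rw [← conj_mul, ← conj_pow, ← conj_pow, h1, h2] at this
      simp only [map_mul, map_pow, map_inv, heis_pi_sc, one_mul, c.mul_pow] at this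
      rw [map_pow]
      convert this using 1
      rw [(c.pow_pow l l).eq]; group
  exact ⟨hx, inv_mem_iff.1 (h3 ▸ hn s hs x hx)⟩

theorem HP7.stab (h : HP7 ζ x y) (hx : x ∈ N) (hy : y ∈ N) (hu : u ∈ N) (hs : s ∈ N)
    (h1 : u * x * u⁻¹ = x) {c : Fˣ} (h2 : u * y * u⁻¹ = sc ι c * (x * y)) (h3 : s * x * s⁻¹ = y⁻¹)
    {A : Subalgebra F (Matrix ι ι F)} (hA : Stab N A) : A = ⊥ ∨ A = ⊤ := by
  refine or_iff_not_imp_left.2 fun hb => ?_
  obtain ⟨a, ha, a0⟩ := SetLike.exists_of_lt (bot_lt_iff_ne_bot.2 hb)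
  have t7 : ∀ {t : GL ι F}, t ^ 7 = 1 → ∀ a, ((cj t).toLinearMap ^ 7) a = a := fun {t} e a => by
    have k : ∀ n : ℕ, ((cj t).toLinearMap ^ n) a = cj (t ^ n) a := fun n => by
      induction n with
      | zero => simp [cj_apply]
      | succ n ih => rw [pow_succ', Module.End.mul_apply, ih, pow_succ', cj_mul]; rfl
    rw [k, e]
    simp [cj_apply]
  obtain ⟨b, hb, b0, i, hi⟩ := heis_eig7 h.prim (cj x).toLinearMap (t7 h.x7) (W := A.toSubmodule)
    (U := (⊥ : Subalgebra F (Matrix ι ι F)).toSubmodule) (hA x hx) ha a0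
  obtain ⟨d, hd, d0, j, hj⟩ := heis_eig7 h.prim (cj y).toLinearMap (t7 h.y7)
    (W := A.toSubmodule ⊓ LinearMap.eqLocus ((ζ : F) ^ i • (cj x).toLinearMap) LinearMap.id)
    (U := (⊥ : Subalgebra F (Matrix ι ι F)).toSubmodule) (fun e he => ⟨hA y hy e he.1, by
      have : (ζ : F) ^ i • cj x e = e := he.2
      change (ζ : F) ^ i • cj x (cj y e) = cj y e
      rw [← cj_mul, h.comm, cj_mul, cj_of_mem_scalars (Asch.sc_mem ζ), cj_mul, ← map_smul, this]⟩) ⟨hb, hi⟩ b0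
  obtain ⟨e, k, l, rfl⟩ := h.mat_of_comm (b := d) hd.2 hj
  have e0 : e ≠ 0 := by rintro rfl; exact d0 (by rw [zero_smul]; exact zero_mem _)
  let S : Subgroup (GL ι F) :=
    { carrier := {g | g.1 ∈ A}
      mul_mem' := fun a b => A.mul_mem a b
      one_mem' := A.one_mem
      inv_mem' := fun {g} hg => by
        obtain ⟨n, hn⟩ : ∃ n : ℕ, g ^ n = g⁻¹ := (isOfFinOrder_of_finite g).mem_powers_iff_mem_zpowers.2
          (inv_mem (mem_zpowers g))
        change (g⁻¹).1 ∈ A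
        rw [← hn, Units.val_pow_eq_pow_val]
        exact A.pow_mem hg n }
  obtain ⟨xS, yS⟩ := h.mem_of_nrm hu hs h1 h2 h3 (S := S)
    (by rintro _ ⟨c, rfl⟩; change (sc ι c).1 ∈ A; rw [coe_sc]; exact A.smul_mem A.one_mem _)
    (fun g hg t ht => by change (g * t * g⁻¹).1 ∈ A; rw [← cj_coe]; exact hA g hg _ ht) (k := k) (l := l)
    ((A.toSubmodule.smul_mem_iff e0).1 hd.1) fun ⟨c, hc⟩ => d0 (Submodule.smul_mem _ _ (by
      rw [← hc]; exact mem_bot_iff.2 ⟨c, coe_sc c⟩))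
  rw [eq_top_iff, ← h.env_top, env_le_iff]
  exact (closure_le S).2 (by rintro _ (rfl | rfl) <;> assumption)

theorem HP7.fin (h : HP7 ζ x y) (h7 : Fintype.card ι = 7) (hx : x ∈ N) (hy : y ∈ N) (hu : u ∈ N)
    (hs : s ∈ N) (h1 : u * x * u⁻¹ = x) {c : Fˣ} (h2 : u * y * u⁻¹ = sc ι c * (x * y))
    (h3 : s * x * s⁻¹ = y⁻¹) {L : Subgroup (GL ι F)} (hL : scalars ι F ≤ L) (hn : Nrm N L)
    (h0 : ¬ L ≤ scalars ι F) (hc : ∀ a ∈ L, ∀ b ∈ L, a * b * a⁻¹ * b⁻¹ ∈ scalars ι F) :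
    normalizer (L : Set (GL ι F)) ≤ normalizer (closure {x, y} : Subgroup (GL ι F)) := by
  have : Fact (Nat.Prime 7) := ⟨heis_seven⟩
  have he : env L = ⊤ := (h.stab hx hy hu hs h1 h2 h3 hn.stab_env).resolve_left (mt env_eq_bot_iff.1 h0)
  have p7 : ∀ a ∈ L, a ^ 7 ∈ scalars ι F := fun a ha => mem_scalars_of_comm_env he fun b hb => by
    obtain ⟨c, e⟩ := mem_scalars_iff_sc.1 (hc a ha b hb)
    have d := congrArg (fun g : GL ι F => GeneralLinearGroup.det g) e
    have : c ^ 7 = 1 := Units.ext (by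
      have := congrArg Units.val d
      simp only [map_mul, map_inv, mul_inv_cancel_comm, mul_inv_cancel] at this
      rwa [GeneralLinearGroup.val_det_apply, coe_sc, det_smul, det_one, mul_one, h7] at this)
    rw [← commutatorElement_eq_one_iff_mul_comm, Core.commutatorElement_pow_left_of_commute
      (commute_of_mem_scalars (hc a ha b hb) a), commutatorElement_def, ← e, ← map_pow, this, map_one]
  have hR : closure {x, y} ≤ N := (closure_le N).2 (by rintro _ (rfl | rfl) <;> assumption)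
  have pL : IsPGroup 7 (L.map (heisPi ι F)) := Tech.isPGroup_iff_mem.2 (by
    rintro _ ⟨a, ha, rfl⟩
    exact ⟨1, by rw [pow_one, ← map_pow, heis_pi_eq_one.2 (p7 a ha)]⟩)
  have pR : IsPGroup 7 ((closure {x, y}).map (heisPi ι F)) := Tech.isPGroup_iff_mem.2 (by
    rintro _ ⟨a, ha, rfl⟩
    exact ⟨1, by rw [pow_one, ← map_pow, h.pow7 ha, map_one]⟩)
  have nR : (closure {x, y}).map (heisPi ι F) ≤ normalizer (L.map (heisPi ι F) : Set _) :=
    (map_mono (hR.trans (nrm_iff_le_normalizer.1 hn))).trans (le_normalizer_map _)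
  have hx' : x ∈ closure {x, y} := subset_closure (by simp)
  have hy' : y ∈ closure {x, y} := subset_closure (by simp)
  obtain ⟨_, ⟨a, ha, rfl⟩, ho, hz⟩ := Tech.exists_mem_center_of_normalized (pL.to_sup_of_normal_left' pR nR) le_sup_left
    (sup_le le_normalizer nR) (fun e => h0 fun a ha => heis_pi_eq_one.1 (e.le (mem_map_of_mem _ ha)))
  obtain ⟨d, k, l, rfl⟩ := h.mem_of_comm (g := a)
    (heis_comm_iff.2 (hz _ (mem_sup_right (mem_map_of_mem _ hx'))).symm)
    (heis_comm_iff.2 (hz _ (mem_sup_right (mem_map_of_mem _ hy'))).symm)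
  obtain ⟨xL, yL⟩ := h.mem_of_nrm hu hs h1 h2 h3 hL hn ((mul_mem_cancel_left (hL (Asch.sc_mem d))).1 ha) fun e => by
    rw [heis_pi_eq_one.2 (mul_mem (Asch.sc_mem d) e)] at ho
    simp at ho
  intro g hg
  have k : ∀ t ∈ L, t ^ 7 = 1 → g * t * g⁻¹ ∈ closure {x, y} := fun t ht t7 => by
    have m := Tech.conj_mem_of_mem_normalizer hg ht
    obtain ⟨d, k, l, e⟩ := h.mem_of_comm (hc _ m x xL) (hc _ m y yL)
    refine h.mem_of_pow ?_ (by rw [conj_pow, t7]; group)
    rw [e]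
    exact mul_mem (mem_sup_right (Asch.sc_mem d)) (mem_sup_left (mul_mem (pow_mem hx' k) (pow_mem hy' l)))
  exact h.mem_normalizer (k x xL h.x7) (k y yL h.y7)

theorem HP7.tr {κ : Type} [Fintype κ] [DecidableEq κ] {B : Matrix ι κ F} {B' : Matrix κ ι F} (h1 : B * B' = 1)
    (h2 : B' * B = 1) (h : HP7 ζ x y) : HP7 ζ (trG h1 h2 x) (trG h1 h2 y) := by
  refine ⟨h.prim, by rw [← map_pow, h.x7, map_one], by rw [← map_pow, h.y7, map_one], ?_, weil_env h1 h2 (fun g hg => ?_) h.env_top⟩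
  · rw [← map_mul, h.comm, map_mul, weil_sc, map_mul]
  · have := mem_map_of_mem (trG h1 h2).toMonoidHom hg
    rwa [MonoidHom.map_closure, Set.image_pair] at this

theorem heis_Y7_pow (k : ℕ) : Y7 F ^ k = of fun i j => if i = j + k • 1 then 1 else 0 := by
  induction k with
  | zero => ext i j; simp [one_apply]
  | succ k ih =>
    ext i j
    rw [pow_succ, ih, mul_apply, Finset.sum_eq_single (j + 1)]
    · simp only [Y7, of_apply, if_true, mul_one, succ_nsmul', add_assoc]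
    · exact fun b _ n => by simp [Y7, n]
    · simp

theorem hp7_std {x y : GL (Fin 7) F} (hζ : IsPrimitiveRoot (ζ : F) 7) (ex : x.1 = X7 (ζ : F)) (ey : y.1 = Y7 F) :
    HP7 ζ x y := by
  have h7 : (ζ : F) ^ 7 = 1 := hζ.pow_eq_one
  have inj : Function.Injective fun j : Fin 7 => (ζ : F) ^ j.val := fun i j e => Fin.ext (hζ.pow_inj i.2 j.2 e)
  have hx : x ∈ closure {x, y} := subset_closure (by simp)
  have hy : y ∈ closure {x, y} := subset_closure (by simp)
  refine ⟨hζ, Units.ext ?_, Units.ext ?_, Units.ext ?_,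
    weil_top inj (show X7 (ζ : F) ∈ _ from ex ▸ coe_mem_env hx) fun i j =>
      ⟨_, pow_mem (ey ▸ coe_mem_env hy) (i - j).val, ?_⟩⟩
  · rw [Units.val_pow_eq_pow_val, ex, X7, diagonal_pow, Units.val_one, ← diagonal_one]
    congr 1; ext i
    rw [Pi.pow_apply, ← pow_mul, mul_comm, pow_mul, h7, one_pow]
  · rw [Units.val_pow_eq_pow_val, ey, heis_Y7_pow, Units.val_one]
    ext i j
    rw [of_apply, show (7 : ℕ) • (1 : Fin 7) = 0 from rfl, add_zero, one_apply]
  · rw [Units.val_mul, Units.val_mul, Units.val_mul, coe_sc, ex, ey, smul_mul_assoc, one_mul]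
    ext i j
    rw [Matrix.smul_apply, X7, diagonal_mul, mul_diagonal, Y7, of_apply]
    split_ifs with e
    · rw [e, Fin.val_add, ← pow_eq_pow_mod _ h7, show ((1 : Fin 7) : ℕ) = 1 from rfl, pow_succ', mul_one, one_mul,
        smul_eq_mul]
    · simp
  · rw [heis_Y7_pow, of_apply, (by decide : ∀ i j : Fin 7, j + (i - j).val • 1 = i), if_pos rfl]
    exact one_ne_zero

/-- normal form, for a prescribed root of unity -/
theorem exists_nf7 {R : Subgroup (GL (Fin 7) F)} (hR : IsSymplecticTypeGroup 7 R)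
    (habs : ActsAbsolutelyIrreducibly (matrixSet R)) (hZ : Nat.card (center R) = 7)
    (hζ : IsPrimitiveRoot (ζ : F) 7) : ∃ (x y : GL (Fin 7) F) (B B' : M7 F),
      B * B' = 1 ∧ B' * B = 1 ∧ R = closure {x, y} ∧ x.1 * B = B * X7 (ζ : F) ∧ y.1 * B = B * Y7 F := by
  have : Fact (Nat.Prime 7) := ⟨heis_seven⟩
  have h7 : ∀ x ∈ R, x ^ 7 = 1 := fun x hx => by
    have := Monoid.pow_exponent_eq_one (⟨x, hx⟩ : R)
    rw [hR.exponent_eq] at this
    exact congrArg Subtype.val this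
  have cm : ∀ g ∈ R, ∀ h ∈ R, g * h * g⁻¹ * h⁻¹ ∈ scalars (Fin 7) F := fun g hg h hh =>
    (CasesSp.mem_center_iff_scalar habs _).1 (SLCases.comm_mem_center
      heis_seven hR.pGroup hR.cyclic_of_characteristic (by rw [hZ, hR.exponent_eq]; rfl) ⟨g, hg⟩ ⟨h, hh⟩)
  obtain ⟨x, hx, y, hy, c⟩ : ∃ x ∈ R, ∃ y ∈ R, x * y = sc (Fin 7) ζ * (y * x) := by
    obtain ⟨x, hx, y, hy, n⟩ : ∃ x ∈ R, ∃ g ∈ R, x * g ≠ g * x := by
      simpa using not_comm_of_env (by simp) (span_eq_top_of_absIrred habs)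
    obtain ⟨η, e⟩ := mem_scalars_iff_sc.1 (cm x hx y hy)
    have c : x * y = sc (Fin 7) η * (y * x) := by rw [e]; group
    have pr : IsPrimitiveRoot (η : F) 7 := by
      have : orderOf η = 7 := orderOf_eq_prime (sc_injective (ι := Fin 7) (by
        rw [map_pow, map_one, e]
        exact h7 _ (mul_mem (mul_mem (mul_mem hx hy) (inv_mem hx)) (inv_mem hy)))) fun e1 => n (by
          rw [c, e1, map_one, one_mul])
      exact IsPrimitiveRoot.coe_units_iff.2 (this ▸ IsPrimitiveRoot.orderOf η)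
    obtain ⟨m, -, em⟩ := pr.eq_pow_of_pow_eq_one hζ.pow_eq_one
    refine ⟨x, hx, y ^ m, pow_mem hy m, ?_⟩
    rw [show ζ = η ^ m from Units.ext em.symm]
    clear em
    have c' : ∀ (a : Fˣ) (g : GL (Fin 7) F), g * sc (Fin 7) a = sc (Fin 7) a * g := fun a g =>
      (mul_comm_of_mem_scalars (Asch.sc_mem a) g).symm
    induction m with
    | zero => simp
    | succ j ih =>
      rw [pow_succ, ← mul_assoc, ih, mul_assoc, mul_assoc, c, ← mul_assoc (y ^ j), c', pow_succ, map_mul]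
      simp only [mul_assoc]
  have k : ∀ (j : ℕ) (v : Fin 7 → F), x.1 *ᵥ (y ^ j).1 *ᵥ v = (ζ : F) ^ j • (y ^ j).1 *ᵥ x.1 *ᵥ v := fun j v => by
    induction j with
    | zero => simp
    | succ j ih =>
      rw [pow_succ', Units.val_mul, ← mulVec_mulVec, mulVec_mulVec _ x.1, ← Units.val_mul, c, Units.val_mul, coe_sc,
        smul_mul_assoc, one_mul, smul_mulVec, Units.val_mul, ← mulVec_mulVec, ih, mulVec_smul, smul_smul, ← pow_succ',
        ← mulVec_mulVec]
  obtain ⟨b, -, b0, i, hi⟩ := heis_eig7 hζ (toLin' x.1) (fun a => by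
    rw [← toLin'_pow, ← Units.val_pow_eq_pow_val, h7 x hx]
    simp) (W := ⊤) (U := ⊥) (fun _ _ => trivial) (a := Pi.single 0 1) trivial (by simp)
  set v := (y ^ i).1 *ᵥ b
  have hv : x.1 *ᵥ v = v := by rw [k, ← mulVec_smul, ← toLin'_apply x.1, hi]
  have nz : ∀ (g : GL (Fin 7) F) (w : Fin 7 → F), w ≠ 0 → g.1 *ᵥ w ≠ 0 := fun g w w0 e =>
    w0 (by rw [← inv_mulVec_mulVec g w, e, mulVec_zero])
  let B : Matrix (Fin 7) (Fin 7) F := of fun r j => ((y ^ j.val).1 *ᵥ v) r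
  have inj : Function.Injective fun j : Fin 7 => (ζ : F) ^ j.val := fun i j e => Fin.ext (hζ.pow_inj i.2 j.2 e)
  obtain ⟨B', h1⟩ := (linearIndependent_cols_iff_isUnit.1 (Module.End.eigenvectors_linearIndependent' (toLin' x.1) _ inj B.col
    fun j => ⟨Module.End.mem_eigenspace_iff.2 (by
      change x.1 *ᵥ (y ^ j.val).1 *ᵥ v = _ • (y ^ j.val).1 *ᵥ v
      rw [k, hv]), nz _ _ (nz _ _ b0)⟩)).exists_right_inv
  have h2 := mul_eq_one_comm.1 h1
  have ex : x.1 * B = B * X7 (ζ : F) := by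
    ext r j
    rw [X7, mul_diagonal, mul_comm]
    exact congrFun ((k j v).trans (by rw [hv])) r
  have ey : y.1 * B = B * Y7 F := by
    ext r j
    rw [mul_apply (M := B), Finset.sum_eq_single (j + 1) (fun b _ n => by simp [Y7, n]) (by simp)]
    simp only [Y7, of_apply, if_true, mul_one, B]
    rw [Fin.val_add, ← pow_eq_pow_mod _ (h7 y hy), show ((1 : Fin 7) : ℕ) = 1 from rfl, pow_succ', Units.val_mul,
      ← mulVec_mulVec]
    rfl
  have hx' : ∀ {G : Type _} [Group G] (x y : G), x ∈ closure {x, y} ∧ y ∈ closure {x, y} :=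
    fun x y => ⟨subset_closure (by simp), subset_closure (by simp)⟩
  have H : HP7 ζ x y := by
    have := (hp7_std hζ (weil_tr h1 h2 ex) (weil_tr h1 h2 ey)).tr h2 h1
    rwa [show trG h2 h1 (trG h1 h2 x) = x from (trG h1 h2).symm_apply_apply x,
      show trG h2 h1 (trG h1 h2 y) = y from (trG h1 h2).symm_apply_apply y] at this
  refine ⟨x, y, B, B', h1, h2, le_antisymm (fun g hg => ?_) ((closure_le _).2 ?_), ex, ey⟩
  · obtain ⟨d, k, l, e⟩ := H.mem_of_comm (cm g hg x hx) (cm g hg y hy)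
    refine H.mem_of_pow ?_ (h7 g hg)
    rw [e]
    exact mul_mem (mem_sup_right (Asch.sc_mem d)) (mem_sup_left (mul_mem (pow_mem (hx' _ _).1 k) (pow_mem (hx' _ _).2 l)))
  · rintro _ (rfl | rfl) <;> assumption

end CfsgLib.Wl7
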