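import Mathlib
import Cfsg.Agent.Lib.Wl7.Defs

/-! Monomial and character matrices of size seven.  See `plans/WL7.md`. -/

set_option autoImplicit false

namespace CfsgLib.Wl7

open Matrix

variable {F : Type*} [Field F] {z : F}

/-- the additive character -/
def weE (z : F) (k : Fin 7) : F := z ^ (k : ℕ)

/-- monomial matrices -/
def weM (z : F) (σ d : Fin 7 → Fin 7) : M7 F := of fun i j => if i = σ j then weE z (d j) else 0

/-- character matrices -/
def weQ (z : F) (f : Fin 7 → Fin 7 → Fin 7) : M7 F := of fun i j => weE z (f i j)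

theorem weE_zero : weE z 0 = 1 := pow_zero z

theorem weE_add (h : z ^ 7 = 1) (a b : Fin 7) : weE z (a + b) = weE z a * weE z b := by
  rw [weE, weE, weE, Fin.val_add, ← pow_eq_pow_mod _ h, pow_add]

theorem we_MM (h : z ^ 7 = 1) (σ d σ' d' : Fin 7 → Fin 7) :
    weM z σ d * weM z σ' d' = weM z (fun j => σ (σ' j)) fun j => d (σ' j) + d' j := by
  ext i j
  rw [mul_apply, Finset.sum_eq_single (σ' j) (fun b _ n => by simp [weM, n]) (by simp)]
  simp only [weM, of_apply, if_true]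
  split_ifs
  · rw [weE_add h]
  · rw [zero_mul]

theorem we_QM (h : z ^ 7 = 1) (f : Fin 7 → Fin 7 → Fin 7) (σ d : Fin 7 → Fin 7) :
    weQ z f * weM z σ d = weQ z fun i j => f i (σ j) + d j := by
  ext i j
  rw [mul_apply, Finset.sum_eq_single (σ j) (fun b _ n => by simp [weM, n]) (by simp)]
  simp only [weM, weQ, of_apply, if_true, weE_add h]

theorem we_MQ (h : z ^ 7 = 1) {σ : Fin 7 → Fin 7} (τ d : Fin 7 → Fin 7) (hτ : ∀ i k, i = σ k ↔ k = τ i)
    (f : Fin 7 → Fin 7 → Fin 7) : weM z σ d * weQ z f = weQ z fun i j => d (τ i) + f (τ i) j := by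
  ext i j
  rw [mul_apply, Finset.sum_eq_single (τ i) (fun b _ n => by simp [weM, hτ, n]) (by simp)]
  simp only [weM, weQ, of_apply, hτ, if_true, weE_add h]

theorem we_sM (h : z ^ 7 = 1) (c : Fin 7) (σ d : Fin 7 → Fin 7) :
    z ^ (c : ℕ) • weM z σ d = weM z σ fun j => c + d j := by
  ext i j
  simp only [weM, of_apply, Matrix.smul_apply, smul_eq_mul, weE_add h]
  split_ifs
  · rfl
  · rw [mul_zero]

theorem we_one : (1 : M7 F) = weM z id 0 := by
  ext i j
  simp [weM, one_apply, weE]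

theorem we_X : X7 z = weM z id id := by
  ext i j
  simp only [X7, weM, diagonal_apply, of_apply, id, weE]
  split_ifs with e
  · rw [e]
  · rfl

theorem we_Y : Y7 F = weM z (· + 1) 0 := by
  ext i j
  simp [Y7, weM, weE]

theorem we_Z : Z7 F = weM z (fun j => -j) 0 := by
  ext i j
  simp only [Z7, weM, of_apply, Pi.zero_apply, weE_zero, (by decide : ∀ i j : Fin 7, i + j = 0 ↔ i = -j)]

theorem we_T : T7 F = weM z (2 * ·) 0 := by
  ext i j
  simp [T7, weM, weE]

theorem we_U : U7 z = weM z id fun j => 4 * j * j := by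
  have : ![1, z ^ 4, z ^ 2, z, z, z ^ 2, z ^ 4] = fun j => weE z (4 * j * j) := by
    ext j
    fin_cases j
    exacts [(pow_zero z).symm, rfl, rfl, (pow_one z).symm, (pow_one z).symm, rfl, rfl]
  ext i j
  simp only [U7, this, weM, diagonal_apply, of_apply, id]
  split_ifs with e
  · rw [e]
  · rfl

theorem we_F : F7 z = weQ z (· * ·) := rfl

theorem we_geom (hz : IsPrimitiveRoot z 7) : 1 + z + z ^ 2 + z ^ 3 + z ^ 4 + z ^ 5 + z ^ 6 = 0 := by
  have := hz.geom_sum_eq_zero (by norm_num)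
  simpa [Finset.sum_range_succ] using this

theorem we_sum (hz : IsPrimitiveRoot z 7) : ∑ k, weE z k = 0 := by
  rw [Fin.sum_univ_seven, ← we_geom hz]
  simp [weE]

theorem we_g4 : ∑ k, weE z (4 * k * k) = gs z := by
  rw [Fin.sum_univ_seven]
  change z ^ 0 + z ^ 4 + z ^ 2 + z ^ 1 + z ^ 1 + z ^ 2 + z ^ 4 = _
  rw [gs]; ring

theorem we_g5 (hz : IsPrimitiveRoot z 7) : ∑ k, weE z (5 * k * k) = -gs z := by
  rw [Fin.sum_univ_seven]
  change z ^ 0 + z ^ 5 + z ^ 6 + z ^ 3 + z ^ 3 + z ^ 6 + z ^ 5 = _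
  rw [gs]; linear_combination 2 * we_geom hz

theorem we_QQ (h : z ^ 7 = 1) {f f' : Fin 7 → Fin 7 → Fin 7} (a : Fin 7) (s r : Fin 7 → Fin 7 → Fin 7)
    (e : ∀ i j k, f i (k + s i j) + f' (k + s i j) j = a * k * k + r i j) :
    weQ z f * weQ z f' = (∑ k, weE z (a * k * k)) • weQ z r := by
  ext i j
  rw [mul_apply, ← Equiv.sum_comp (Equiv.addRight (s i j)), Matrix.smul_apply, smul_eq_mul, Finset.sum_mul]
  refine Finset.sum_congr rfl fun k _ => ?_
  simp only [weQ, of_apply, Equiv.coe_addRight, ← weE_add h, e]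

theorem we_QQ' (hz : IsPrimitiveRoot z 7) {f f' : Fin 7 → Fin 7 → Fin 7} (σ d : Fin 7 → Fin 7)
    (e1 : ∀ j k, f (σ j) k + f' k j = d j) (e2 : ∀ i j, i ≠ σ j → ∀ k l, f i k + f' k j = f i l + f' l j → k = l) :
    weQ z f * weQ z f' = (7 : F) • weM z σ d := by
  have h := hz.pow_eq_one
  ext i j
  rw [mul_apply, Matrix.smul_apply, smul_eq_mul]
  simp only [weQ, weM, of_apply, ← weE_add h]
  split_ifs with e
  · simp [e, e1]
  · rw [mul_zero, ← we_sum hz]
    exact Equiv.sum_comp (Equiv.ofBijective (fun k => f i k + f' k j)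
      (Finite.injective_iff_bijective.1 fun k l => e2 i j e k l)) (weE z)

theorem we_gs (hz : IsPrimitiveRoot z 7) : gs z ^ 2 = -7 ∧ gs z ≠ 0 := by
  have h : gs z ^ 2 = -7 := by
    have h7 := hz.pow_eq_one
    rw [gs]
    linear_combination 8 * we_geom hz + 4 * z * h7
  refine ⟨h, fun e => ?_⟩
  have n7 : (7 : F) ≠ 0 := by exact_mod_cast (hz.neZero' (n := 7)).out
  rw [e] at h
  exact n7 (by linear_combination h)

theorem we_FF (hz : IsPrimitiveRoot z 7) : F7 z * F7 z = (7 : F) • Z7 F := by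
  rw [we_F, we_Z (z := z)]
  exact we_QQ' hz _ _ (by decide) (by decide +kernel)

theorem we_FUF (h : z ^ 7 = 1) : F7 z * U7 z * F7 z = gs z • weQ z fun i j => 3 * (i + j) * (i + j) := by
  rw [we_F, we_U, we_QM h, ← we_g4]
  exact we_QQ h 4 (fun i j => -(i + j)) _ (by decide +kernel)

theorem we_U3 (h : z ^ 7 = 1) : U7 z ^ 3 = weM z id fun j => 5 * j * j := by
  rw [pow_three, we_U, we_MM h, we_MM h]
  congr 1
  decide

theorem we_K2 (hz : IsPrimitiveRoot z 7) :
    (U7 z ^ 3 * F7 z) ^ 2 = -gs z • weQ z fun i j => 5 * i * i + (i + j) * (i + j) := by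
  have h := hz.pow_eq_one
  have : F7 z * U7 z ^ 3 * F7 z = -gs z • weQ z fun i j => (i + j) * (i + j) := by
    rw [we_F, we_U3 h, we_QM h, ← we_g5 hz]
    exact we_QQ h 5 (fun i j => 2 * (i + j)) _ (by decide +kernel)
  rw [pow_two, mul_assoc, ← mul_assoc (F7 z), this, Matrix.mul_smul, we_U3 h, we_MQ h (σ := id) id _ (fun _ _ => eq_comm)]
  rfl

end CfsgLib.Wl7
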