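import Mathlib
import Cfsg.Agent.Lib.Wl7.Heis
import Cfsg.Agent.Lib.Wl7.WeilA

/-! The Weil representation of `SL₂(7)`.  See `plans/WL7.md`. -/

set_option autoImplicit false
set_option linter.unusedSectionVars false

namespace CfsgLib.Wl7

open Matrix Subgroup Cfsg Cfsg.Geo CfsgLib.Asch CfsgLib.Wl5
open scoped commutatorElement MatrixGroups

variable {F : Type*} [Field F] [Finite F] {ζ : Fˣ} {x y u s t z : GL (Fin 7) F}

theorem gs_sq {ζ : F} (hζ : IsPrimitiveRoot ζ 7) : gs ζ ^ 2 = -7 ∧ gs ζ ≠ 0 := we_gs hζ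

theorem weil_unit {ζ : F} (h : ζ ^ 7 = 1) {σ d : Fin 7 → Fin 7} (σ' d' : Fin 7 → Fin 7)
    (e : (fun j => σ (σ' j)) = id) (e' : (fun j => d (σ' j) + d' j) = 0) : IsUnit (weM ζ σ d) :=
  IsUnit.of_mul_eq_one (weM ζ σ' d') (by rw [we_MM h, e, e', ← we_one])

theorem weil_ZZ {ζ : F} (h : ζ ^ 7 = 1) : Z7 F * Z7 F = 1 := by
  rw [we_Z (z := ζ), we_MM h, we_one (z := ζ)]
  congr 1
  decide

theorem weil_ss {ζ : F} (hζ : IsPrimitiveRoot ζ 7) : (-(gs ζ)⁻¹ • F7 ζ) * (-(gs ζ)⁻¹ • F7 ζ) = -Z7 F := by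
  obtain ⟨g2, g0⟩ := we_gs hζ
  rw [smul_mul_smul_comm, we_FF hζ, smul_smul, ← neg_one_smul F (Z7 F)]
  congr 1
  field_simp
  linear_combination g2

theorem exists_std (hζ : IsPrimitiveRoot (ζ : F) 7) : ∃ x y u s t z : GL (Fin 7) F, Std ζ x y u s t z := by
  have h := hζ.pow_eq_one
  obtain ⟨x, ex⟩ : IsUnit (X7 (ζ : F)) := we_X (z := (ζ : F)) ▸ weil_unit h id (fun j => -j) rfl (by decide)
  obtain ⟨y, ey⟩ : IsUnit (Y7 F) := we_Y (z := (ζ : F)) ▸ weil_unit h (· - 1) 0 (by decide) (by decide)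
  obtain ⟨u, eu⟩ : IsUnit (U7 (ζ : F)) :=
    we_U (z := (ζ : F)) ▸ weil_unit h id (fun j => -(4 * j * j)) rfl (by decide)
  obtain ⟨t, et⟩ : IsUnit (T7 F) := we_T (z := (ζ : F)) ▸ weil_unit h (4 * ·) 0 (by decide) (by decide)
  have hz : IsUnit (-Z7 F) := (IsUnit.of_mul_eq_one _ (weil_ZZ h)).neg
  obtain ⟨s, es⟩ : IsUnit (-(gs (ζ : F))⁻¹ • F7 (ζ : F)) := isUnit_of_mul_isUnit_left (weil_ss hζ ▸ hz)
  obtain ⟨z, ez⟩ := hz
  refine ⟨x, y, u, s, t, z, hζ, ex, ey, eu, ?_, et, ez⟩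
  rw [es, smul_smul, mul_neg, mul_inv_cancel₀ (we_gs hζ).2, neg_one_smul]

theorem Std.hp (h : Std ζ x y u s t z) : HP7 ζ x y := hp7_std h.prim h.ex h.ey

theorem Std.es' (h : Std ζ x y u s t z) : s.1 = -(gs (ζ : F))⁻¹ • F7 (ζ : F) := by
  rw [neg_smul, ← smul_neg, ← h.es, smul_smul, inv_mul_cancel₀ (we_gs h.prim).2, one_smul]

theorem Std.rel (h : Std ζ x y u s t z) : Rel u s t z := by
  have h7 := h.prim.pow_eq_one
  obtain ⟨g2, g0⟩ := we_gs h.prim
  refine ⟨Units.ext ?_, Units.ext ?_, mul_inv_eq_iff_eq_mul.2 (Units.ext ?_), ?_, Units.ext ?_, Units.ext ?_,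
    Units.ext ?_, Units.ext ?_, Units.ext ?_, Units.ext ?_⟩
  · rw [Units.val_pow_eq_pow_val, h.eu, pow_succ _ 6, pow_add _ 3 3, we_U3 h7, we_U,
      we_MM h7, we_MM h7, Units.val_one, we_one (z := (ζ : F))]
    congr 1
    decide
  · rw [Units.val_pow_eq_pow_val, h.et, pow_three, we_T (z := (ζ : F)), we_MM h7, we_MM h7, Units.val_one,
      we_one (z := (ζ : F))]
    congr 1
    decide
  · rw [pow_two, Units.val_mul, Units.val_mul, Units.val_mul, h.et, h.eu, we_T (z := (ζ : F)), we_U, we_MM h7,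
      we_MM h7, we_MM h7]
    congr 1
    decide
  · rw [eq_comm, inv_eq_iff_mul_eq_one, ← mul_assoc, ← mul_assoc, mul_inv_eq_one]
    refine Units.ext ?_
    rw [Units.val_mul, Units.val_mul, h.et, h.es', Matrix.mul_smul, Matrix.smul_mul, we_T (z := (ζ : F)), we_F,
      we_MQ h7 (4 * ·) _ (by decide), we_QM h7]
    congr 2
    decide
  · rw [Units.val_mul, h.es', weil_ss h.prim, h.ez]
  · rw [Units.val_mul, h.ez, neg_mul_neg, weil_ZZ h7, Units.val_one]
  · have e : (U7 (ζ : F) * F7 (ζ : F)) ^ 3 = (gs (ζ : F) * 7) • 1 := by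
      rw [show (U7 (ζ : F) * F7 (ζ : F)) ^ 3 =
        U7 (ζ : F) * (F7 (ζ : F) * U7 (ζ : F) * F7 (ζ : F)) * U7 (ζ : F) * F7 (ζ : F) by
          simp only [pow_three, mul_assoc], we_FUF h7, Matrix.mul_smul, Matrix.smul_mul, Matrix.smul_mul, we_U,
        we_MQ h7 (σ := id) id _ (fun _ _ => eq_comm), we_QM h7, we_F,
        we_QQ' h.prim id 0 (by decide) (by decide +kernel), smul_smul, ← we_one]
    rw [Units.val_pow_eq_pow_val, Units.val_mul, h.eu, h.es', Matrix.mul_smul, smul_pow, e, smul_smul, Units.val_one]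
    convert one_smul F (1 : M7 F)
    field_simp
    linear_combination -g2
  · rw [Units.val_pow_eq_pow_val, Units.val_mul, Units.val_pow_eq_pow_val, h.eu, h.es', Matrix.mul_smul, smul_pow,
      show 4 = 2 * 2 from rfl, pow_mul (_ * _), we_K2 h.prim, smul_pow, pow_two (weQ _ _),
      we_QQ' h.prim (fun j => -j) 0 (by decide) (by decide +kernel), ← we_Z, smul_smul, smul_smul, h.ez,
      ← neg_one_smul F (Z7 F)]
    congr 1
    have : (gs (ζ : F))⁻¹ * gs (ζ : F) = 1 := inv_mul_cancel₀ g0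
    generalize (gs (ζ : F))⁻¹ = a at *
    generalize gs (ζ : F) = b at *
    grind
  · rw [Units.val_mul, Units.val_mul, h.ez, h.eu, neg_mul, mul_neg, we_Z (z := (ζ : F)), we_U, we_MM h7, we_MM h7]
    congr 2
    decide
  · rw [Units.val_mul, Units.val_mul, h.ez, h.et, neg_mul, mul_neg, we_Z (z := (ζ : F)), we_T (z := (ζ : F)),
      we_MM h7, we_MM h7]
    congr 2
    decide

theorem Std.conj (h : Std ζ x y u s t z) : u * x * u⁻¹ = x ∧ u * y * u⁻¹ = sc (Fin 7) (ζ ^ 3) * (x * y) ∧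
    s * x * s⁻¹ = y⁻¹ ∧ s * y * s⁻¹ = x ∧ t * x * t⁻¹ = x ^ 4 ∧ t * y * t⁻¹ = y ^ 2 := by
  have h7 := h.prim.pow_eq_one
  refine ⟨mul_inv_eq_iff_eq_mul.2 (Units.ext ?_), mul_inv_eq_iff_eq_mul.2 (Units.ext ?_), ?_,
    mul_inv_eq_iff_eq_mul.2 (Units.ext ?_), mul_inv_eq_iff_eq_mul.2 (Units.ext ?_),
    mul_inv_eq_iff_eq_mul.2 (Units.ext ?_)⟩
  · rw [Units.val_mul, Units.val_mul, h.eu, h.ex, we_U, we_X, we_MM h7, we_MM h7]
    congr 1
    decide
  · rw [Units.val_mul, Units.val_mul, Units.val_mul, Units.val_mul, coe_sc, h.eu, h.ex, h.ey, smul_mul_assoc,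
      one_mul, smul_mul_assoc, we_U, we_X, we_Y (z := (ζ : F)), we_MM h7, we_MM h7, we_MM h7,
      Units.val_pow_eq_pow_val]
    refine Eq.trans ?_ (we_sM h7 3 _ _).symm
    congr 1
    decide
  · rw [eq_comm, inv_eq_iff_mul_eq_one, ← mul_assoc, ← mul_assoc, mul_inv_eq_one]
    refine Units.ext ?_
    rw [Units.val_mul, Units.val_mul, h.ey, h.ex, h.es', Matrix.mul_smul, Matrix.smul_mul, we_Y (z := (ζ : F)), we_F,
      we_X, we_MQ h7 (· - 1) _ (by decide), we_QM h7]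
    congr 2
    decide
  · rw [Units.val_mul, Units.val_mul, h.ey, h.ex, h.es', Matrix.mul_smul, Matrix.smul_mul, we_Y (z := (ζ : F)), we_F,
      we_X, we_MQ h7 (σ := id) id _ (fun _ _ => eq_comm), we_QM h7]
    congr 2
    decide
  · rw [show 4 = 2 + 2 from rfl, pow_add, pow_two]
    simp only [Units.val_mul]
    rw [h.et, h.ex, we_T (z := (ζ : F)), we_X, we_MM h7, we_MM h7, we_MM h7, we_MM h7]
    congr 1
    decide
  · rw [pow_two]
    simp only [Units.val_mul]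
    rw [h.et, h.ey, we_T (z := (ζ : F)), we_Y (z := (ζ : F)), we_MM h7, we_MM h7, we_MM h7]
    congr 1
    decide

theorem Std.mem (h : Std ζ x y u s t z) : x ∈ NS (closure {x, y}) ∧ y ∈ NS (closure {x, y}) ∧
    u ∈ NS (closure {x, y}) ∧ s ∈ NS (closure {x, y}) ∧ t ∈ NS (closure {x, y}) := by
  have H := h.hp
  obtain ⟨r1, r2, r3, r4, r5, r6⟩ := h.conj
  have hX : x ∈ closure {x, y} := subset_closure (by simp)
  have hY : y ∈ closure {x, y} := subset_closure (by simp)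
  have sl : closure {u, s, t} ≤ specialLinear (Fin 7) F := by
    rw [← h.rel.perfect]
    refine commutator_le.2 fun g _ k _ => ?_
    change GeneralLinearGroup.det ⁅g, k⁆ = 1
    rw [map_commutatorElement, commutatorElement_eq_one_iff_mul_comm, mul_comm]
  obtain ⟨mu, ms, mt⟩ := mem3 u s t
  have dx : GeneralLinearGroup.det x = 1 := by
    have a := congrArg GeneralLinearGroup.det H.x7
    have b := congrArg GeneralLinearGroup.det r5
    rw [map_mul, map_mul, map_inv, mul_inv_cancel_comm, map_pow, pow_succ, eq_comm, mul_eq_right] at b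
    rwa [map_pow, map_one, pow_succ _ 6, pow_add _ 3 3, b, one_mul, one_mul] at a
  have dy : GeneralLinearGroup.det y = 1 := by
    have b := congrArg GeneralLinearGroup.det r4
    rwa [map_mul, map_mul, map_inv, mul_inv_cancel_comm, dx] at b
  refine ⟨⟨le_normalizer hX, dx⟩, ⟨le_normalizer hY, dy⟩, ⟨H.mem_normalizer (r1.symm ▸ hX) ?_, sl mu⟩,
    ⟨H.mem_normalizer (r3.symm ▸ inv_mem hY) (r4.symm ▸ hX), sl ms⟩,
    ⟨H.mem_normalizer (r5.symm ▸ pow_mem hX 4) (r6.symm ▸ pow_mem hY 2), sl mt⟩⟩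
  rw [r2, map_pow]
  exact mul_mem (pow_mem H.sc_mem 3) (mul_mem hX hY)

theorem Std.z_not_scalar (h : Std ζ x y u s t z) : z ∉ scalars (Fin 7) F := by
  intro hz
  obtain ⟨c, e⟩ := (mem_scalars_iff z).1 hz
  have := congrFun (congrFun (h.ez.symm.trans e) 1) 6
  simp [Z7, (by decide : (1 : Fin 7) + 6 = 0), one_apply] at this

theorem Std.proper (h : Std ζ x y u s t z) :
    ∃ g ∈ specialLinear (Fin 7) F, g ∉ normalizer (closure {x, y} : Subgroup (GL (Fin 7) F)) := by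
  have H := h.hp
  have hX : x ∈ closure {x, y} := subset_closure (by simp)
  have n7 : (7 : F) ≠ 0 := by exact_mod_cast (h.prim.neZero' (n := 7)).out
  have n1 : (ζ : F) ≠ 1 := h.prim.ne_one (by norm_num)
  have n01 : (0 : Fin 7) ≠ 1 := by decide
  obtain ⟨τ, hτ⟩ : ∃ τ : F → GL (Fin 7) F, ∀ c, (τ c).1 = transvection 0 1 c :=
    ⟨fun c => ⟨transvection 0 1 c, transvection 0 1 (-c),
      by rw [transvection_mul_transvection_same _ _ n01, add_neg_cancel, transvection_zero],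
      by rw [transvection_mul_transvection_same _ _ n01, neg_add_cancel, transvection_zero]⟩, fun _ => rfl⟩
  have τm : ∀ c d, τ c * τ d = τ (c + d) := fun c d => Units.ext (by
    rw [Units.val_mul, hτ, hτ, hτ, transvection_mul_transvection_same _ _ n01])
  have τp : ∀ c (n : ℕ), τ c ^ (n + 1) = τ ((n + 1 : ℕ) * c) := fun c n => by
    induction n with
    | zero => simp
    | succ n ih => rw [pow_succ, ih, τm]; exact congrArg τ (by push_cast; ring)
  have τi : (τ ζ)⁻¹ = τ (-ζ) := inv_eq_of_mul_eq_one_right (Units.ext (by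
    rw [τm, add_neg_cancel, hτ, transvection_zero, Units.val_one]))
  have dτ : GeneralLinearGroup.det (τ ζ) = 1 := Units.ext (by
    rw [GeneralLinearGroup.val_det_apply, hτ, det_transvection_of_ne 0 1 n01, Units.val_one])
  refine ⟨τ ζ, MonoidHom.mem_ker.2 dτ, fun hn => ?_⟩
  have m0 : τ ζ * x * (τ ζ)⁻¹ ∈ closure {x, y} := Tech.conj_mem_of_mem_normalizer hn hX
  have m := H.pow7 (mul_mem m0 (inv_mem hX))
  have e : x * τ (-ζ) = τ (-1) * x := Units.ext (by
    rw [Units.val_mul, Units.val_mul, h.ex, hτ, hτ]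
    ext i j
    simp only [X7, transvection, diagonal_mul, mul_diagonal, Matrix.add_apply, one_apply, single_apply]
    by_cases a : 0 = i ∧ 1 = j
    · obtain ⟨rfl, rfl⟩ := a
      simp
    · rw [if_neg a, if_neg a]
      split_ifs with b
      · rw [b, mul_comm]
      · simp)
  rw [τi, mul_assoc (τ ζ), e, ← mul_assoc, mul_inv_cancel_right, τm, τp _ 6] at m
  have := congrFun (congrFun ((hτ _).symm.trans (congrArg Units.val m)) 0) 1
  simp [transvection, n7, ← sub_eq_add_neg, sub_eq_zero, n1] at this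

end CfsgLib.Wl7
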