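import Mathlib
import Cfsg.Agent.Lib.Wl7.Weil
import Cfsg.Agent.Lib.Wl7.Iso
import Cfsg.Agent.Lib.ZStar.Main
import Cfsg.Agent.Lib.FT.OddOrder
import Cfsg.Agent.Lib.ClMax.Basic

/-! The end of the proof.  See `plans/WL7.md`. -/

set_option autoImplicit false
set_option linter.unusedSectionVars false

namespace CfsgLib.Wl7

open Matrix Subgroup Cfsg Cfsg.Geo CfsgLib.Asch CfsgLib.Wl5
open scoped commutatorElement MatrixGroups

variable {F : Type*} [Field F] [Fintype F] {ζ : Fˣ} {x y u s t z : GL (Fin 7) F}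

theorem Std.max (h : Std ζ x y u s t z) (hH : ∀ H : Subgroup (GL (Fin 7) F), H ≤ specialLinear (Fin 7) F →
    x ∈ H → y ∈ H → u ∈ H → s ∈ H → t ∈ H → specialLinear (Fin 7) F ≤ H ∨ Good H z) :
    IsMaximalIn (specialLinear (Fin 7) F) (NS (closure {x, y})) := by
  refine ClMax.isMaximalIn_of inf_le_right (h.proper.imp fun g hg => ⟨hg.1, fun e => hg.2 e.1⟩)
    fun H h1 h3 g hg hg' => ?_
  obtain ⟨mx, my, mu, ms, mt⟩ := h.mem
  obtain ⟨c1, c2, c3, -⟩ := h.conj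
  have hE : ∀ N : Subgroup (GL (Fin 7) F), Nrm H N → N ≤ scalars (Fin 7) F ∨ env N = ⊤ := fun N hN =>
    (h.hp.stab (h1 mx) (h1 my) (h1 mu) (h1 ms) c1 c2 c3 hN.stab_env).imp_left env_eq_bot_iff.1
  refine (hH H h3 (h1 mx) (h1 my) (h1 mu) (h1 ms) (h1 mt)).resolve_right fun hG => ?_
  have zH : z ∈ H := h.rel.bb ▸ H.mul_mem (h1 ms) (h1 ms)
  have zz := h.rel.zz
  have : Fact (Nat.Prime 2) := ⟨Nat.prime_two⟩
  have hz := ZStar.zstar (G := H) (t := ⟨z, zH⟩) ⟨orderOf_eq_prime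
    (Subtype.ext ((pow_two _).trans zz)) fun e => h.z_not_scalar (by
      rw [show z = 1 from congrArg Subtype.val e]; exact one_mem _),
    fun g hc => Subtype.ext (hG.iso zH zz g.2 (congrArg Subtype.val hc))⟩
  have hn : Nrm H ((pPrimeCore 2 H).map H.subtype) := by
    rintro x hx _ ⟨y, hy, rfl⟩
    exact ⟨_, (inferInstance : (pPrimeCore 2 H).Normal).conj_mem y hy ⟨x, hx⟩, rfl⟩
  by_cases hs : (pPrimeCore 2 H).map H.subtype ≤ scalars (Fin 7) F
  · refine h.z_not_scalar ((hE H (Nrm.self H)).elim (fun e => e zH) fun e =>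
      mem_scalars_of_comm_env e fun x hx => ?_)
    have h4 : z * x * z⁻¹ * x⁻¹ ∈ scalars (Fin 7) F := hs ⟨_, hz ⟨x, hx⟩, rfl⟩
    have h5 : z⁻¹ = z := inv_eq_of_mul_eq_one_right zz
    have h6 : x * z * x⁻¹ = z * (z * x * z⁻¹ * x⁻¹) := by
      rw [h5, ← mul_assoc, ← mul_assoc, ← mul_assoc, zz, one_mul]
    have := hG.iso zH zz hx (h6 ▸ (Commute.refl _).mul_right (mul_comm_of_mem_scalars h4 _).symm)
    exact (mul_inv_eq_iff_eq_mul.1 this).symm
  · obtain ⟨-, L, -, -, l1, l2, l3, -, l4⟩ := exists_elementary_mod_scalars hn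
      (FT.odd_subgroup_solvable (by
        rw [card_map_of_injective H.subtype_injective]; exact Core.odd_card_oddCore H)) hs
    exact hg' ⟨h.hp.fin (by simp) (h1 mx) (h1 my) (h1 mu) (h1 ms) c1 c2 c3 l1 l2 l3 l4
      (nrm_iff_le_normalizer.1 l2 hg), h3 hg⟩

end CfsgLib.Wl7
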