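import Mathlib
import Cfsg.Agent.Lib.Wl7.Lf1
import Cfsg.Agent.Lib.Wl7.Nu
import Cfsg.Agent.Lib.Asch.Group

/-! Subgroups normalised by `SL₂(7)` in dimensions three and four.  See `plans/WL7.md`. -/

set_option autoImplicit false
set_option linter.unusedSectionVars false

namespace CfsgLib.Wl7

open Matrix Subgroup Cfsg Cfsg.Geo CfsgLib.Asch CfsgLib.Wl5
open scoped commutatorElement MatrixGroups

variable {F : Type*} [Field F] [Finite F] {ι : Type} [Fintype ι] [DecidableEq ι]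

namespace LF2

universe u

open LF1 Tech

theorem pgrp (hι : Fintype.card ι = 3 ∨ Fintype.card ι = 4) {ζ : F} (hζ : IsPrimitiveRoot ζ 7)
    {a b c z : GL ι F} (hr : Rel a b c z) (he : env (closure {a, b, c}) = ⊤) {q : ℕ} (hq : q.Prime)
    {T : Subgroup (GL ι F)} (hT : IsPGroup q T) (hN : Nrm (closure {a, b, c}) T) : T ≤ scalars ι F := by
  by_cases h0 : (q : F) = 0
  · have := Fact.mk hq
    have := (CharP.charP_iff_prime_eq_zero hq).2 h0
    have := Fintype.ofFinite F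
    obtain ⟨n, -, hn⟩ := FiniteField.card F q
    obtain ⟨v, hv, h1⟩ := hT.exists_fixed_point_of_prime_dvd_card_of_fixed_point (ι → F) (a := 0) (by
      rw [Nat.card_fun, Nat.card_eq_fintype_card, Nat.card_eq_fintype_card, hn]
      exact dvd_pow (dvd_pow_self q n.ne_zero) (by omega)) fun g => smul_zero g
    let W : Submodule F (ι → F) :=
      { carrier := {w | ∀ t ∈ T, t.1 *ᵥ w = w}
        add_mem' := fun ha hb t ht => by rw [mulVec_add, ha t ht, hb t ht]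
        zero_mem' := fun t _ => mulVec_zero _
        smul_mem' := fun c w hw t ht => by rw [mulVec_smul, hw t ht] }
    have h2 := (irred_of_span (env_eq_top_iff.1 he) W (by
      rintro _ ⟨k, hk, rfl⟩ _ ⟨w, hw, rfl⟩ t ht
      have := hw _ (hN _ (inv_mem hk) t ht)
      rw [toLin'_apply]
      conv_rhs => rw [← this]
      simp only [mulVec_mulVec, ← Units.val_mul, inv_inv, mul_assoc, mul_inv_cancel_left])).resolve_left
      fun e => h1 (e.le (show v ∈ W from fun t ht => hv ⟨t, ht⟩)).symm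
    intro t ht
    rw [show t = 1 from Units.ext (toLin'.injective (LinearMap.ext fun w => by
      simpa using (h2.ge trivial : w ∈ W) t ht))]
    exact one_mem _
  · have h1 : closure {a, b, c} ≤ centralizer (T : Set (GL ι F)) := hr.nc
      (fun x hx => (cent7 (by omega) hζ hq h0 hT (n := 1) hr.a7 (nrm_iff_le_normalizer.1 hN (mem3 a b c).1) x hx).symm)
      fun k hk m hm x hx => by
        have := hm _ (hN _ (inv_mem hk) x hx)
        rw [show x * (k * m * k⁻¹) = k * (k⁻¹ * x * k⁻¹⁻¹ * m) * k⁻¹ by group, this]; group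
    exact fun t ht => mem_scalars_of_comm_env he fun y hy => h1 hy t ht

theorem solv (hι : Fintype.card ι = 3 ∨ Fintype.card ι = 4) {ζ : F} (hζ : IsPrimitiveRoot ζ 7)
    {a b c z : GL ι F} (hr : Rel a b c z) (he : env (closure {a, b, c}) = ⊤) {N : Subgroup (GL ι F)}
    (hN : Nrm (closure {a, b, c}) N) (hs : ⁅N, N⁆ ≤ scalars ι F) : N ≤ scalars ι F := by
  by_contra hn
  obtain ⟨r, L, hp, -, -, h1, h2, h3, h4⟩ := exists_elementary_mod_scalars hN ⟨⟨2, by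
    refine commutator_eq_bot_iff_le_centralizer.2 fun x hx y _ => Subtype.ext (mul_comm_of_mem_scalars ?_ _).symm
    exact (commutator_le.2 fun u _ v _ => hs (commutator_mem_commutator u.2 v.2) :
      ⁅(⊤ : Subgroup N), ⊤⁆ ≤ (scalars ι F).subgroupOf N) hx⟩⟩ hn
  have := Fact.mk hp
  obtain ⟨P, hP⟩ := exists_isSylowIn r L
  have h5 : L ≤ P ⊔ scalars ι F := fun l hl => by
    obtain ⟨k, n, hk⟩ := exists_part hp l
    obtain ⟨g, hg, e⟩ := hP.exists_conj_mem (pow_mem hl _) (isPGroup_zpowers_of_pow hk)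
    have := mul_mem (inv_mem (mem_sup_right (S := P) (pow_mem (h3 l hl) k)))
      (mul_mem (inv_mem (mem_sup_right (h4 g hg _ (pow_mem hl (r * k + 1))))) (mem_sup_left e))
    rwa [show ∀ x, (g * x * g⁻¹ * x⁻¹)⁻¹ * (g * x * g⁻¹) = x from fun x => by group, pow_succ, pow_mul,
      inv_mul_cancel_left] at this
  refine h2 (h5.trans (sup_le (pgrp hι hζ hr he hp hP.pgroup (nrm_iff_le_normalizer.2 fun k hk => ?_)) le_rfl))
  obtain ⟨n, hn, e⟩ := hP.frattini (nrm_iff_le_normalizer.1 h1 hk)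
  exact (mul_mem_cancel_left (nrm_iff_le_normalizer.1 (Nrm.self P).sup_scalars (h5 hn))).1 e

theorem frat {G : Type u} [Group G] [Finite G] {a b c z : G} (hr : Rel a b c z) {D S T : Subgroup G} [S.Normal]
    (hK : closure {a, b, c} ≤ normalizer (D : Set G)) (hT : IsSylowIn 2 T D)
    (h1 : ∀ g ∈ normalizer (T : Set G), ∀ n, g ^ 7 ^ n = 1 → g ∈ centralizer (T : Set G))
    (h2 : ∀ C ≤ centralizer (T : Set G), ∀ (A : Type u) [Group A] (π : C →* A) (a c : C), π a ^ 7 = 1 →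
      π c * π a * (π c)⁻¹ = π a ^ 2 → π a = 1) : closure {a, b, c} ≤ D ⊔ S := by
  let Γ := normalizer (D : Set G)
  have hM : ∀ g ∈ Γ, ∀ m ∈ D ⊔ S, g * m * g⁻¹ ∈ D ⊔ S := fun g hg m => (mem_normalizer_iff.1
    (normalizer_inf_normalizer_le_normalizer_sup _ _ ⟨hg, le_normalizer_of_normal (mem_top g)⟩) m).1
  have : ((D ⊔ S).subgroupOf Γ).Normal := ⟨fun n hn g => hM g g.2 n hn⟩
  let ψ := QuotientGroup.mk' ((D ⊔ S).subgroupOf Γ)
  let π := ψ.comp (inclusion (inf_le_right : centralizer (T : Set G) ⊓ Γ ≤ Γ))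
  have key : ∀ k : Γ, ∃ n : Γ, n.1 ∈ normalizer (T : Set G) ∧ ψ n = ψ k := fun k => by
    obtain ⟨d, hd, e⟩ := hT.frattini k.2
    exact ⟨⟨d, le_normalizer hd⟩ * k, e, by
      rw [map_mul, show ψ ⟨d, _⟩ = 1 from (QuotientGroup.eq_one_iff _).2 (mem_sup_left hd), one_mul]⟩
  obtain ⟨ma, -, mc⟩ := mem3 a b c
  have h7 : ψ ⟨a, hK ma⟩ ^ 7 = 1 := by rw [← map_pow, show (⟨a, hK ma⟩ : Γ) ^ 7 = 1 from Subtype.ext hr.a7, map_one]
  obtain ⟨a', ha⟩ : ψ ⟨a, hK ma⟩ ∈ π.range := by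
    obtain ⟨n, hn, e⟩ := key ⟨a, hK ma⟩
    obtain ⟨k, j, hk⟩ := exists_part (p := 7) (by norm_num) n.1
    exact ⟨⟨n ^ (7 * k + 1), h1 _ (pow_mem hn _) j hk, pow_mem n.2 _⟩,
      (map_pow ψ n _).trans (by rw [e, pow_succ, pow_mul, h7, one_pow, one_mul])⟩
  obtain ⟨c', ⟨c'', hc'⟩, e⟩ := hr.nc (M := (π.range.comap ψ).map Γ.subtype) ⟨⟨a, hK ma⟩, ⟨a', ha⟩, rfl⟩ (by
    rintro k hk _ ⟨m, ⟨m', hm'⟩, rfl⟩
    obtain ⟨n, hn, e⟩ := key ⟨k, hK hk⟩
    refine ⟨⟨k, hK hk⟩ * m * ⟨k, hK hk⟩⁻¹, ⟨⟨n.1 * m'.1 * n.1⁻¹, fun x hx => ?_,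
      Γ.mul_mem (Γ.mul_mem n.2 m'.2.2) (Γ.inv_mem n.2)⟩, ?_⟩, rfl⟩
    · have := m'.2.1 _ ((mem_normalizer_iff.1 (inv_mem hn) x).1 hx)
      rw [show x * (n.1 * m'.1 * n.1⁻¹) = n.1 * (n.1⁻¹ * x * n.1⁻¹⁻¹ * m'.1) * n.1⁻¹ by group, this]; group
    · rw [map_mul, map_mul, map_inv, ← e, ← hm']; rfl) mc
  obtain rfl : c' = ⟨c, hK mc⟩ := Subtype.ext e
  have h3 := h2 _ inf_le_left _ π a' c'' (ha ▸ h7) (by
    rw [ha, hc', ← map_inv, ← map_mul, ← map_mul, ← map_pow]; exact congrArg ψ (Subtype.ext hr.ca))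
  exact hr.nc ((QuotientGroup.eq_one_iff (⟨a, hK ma⟩ : Γ)).1 (ha.symm.trans h3)) fun k hk => hM k (hK hk)

theorem perf (hι : Fintype.card ι = 3 ∨ Fintype.card ι = 4) (h2 : (2 : F) ≠ 0) {ζ : F} (hζ : IsPrimitiveRoot ζ 7)
    {a b c z : GL ι F} (hr : Rel a b c z) {D : Subgroup (GL ι F)} (hN : Nrm (closure {a, b, c}) D) (hD : ⁅D, D⁆ = D)
    (h0 : D ≠ ⊥) : closure {a, b, c} ≤ D := by
  obtain ⟨T⟩ : Nonempty (Sylow 2 D) := inferInstance
  obtain ⟨ν, hν, hp, hm, hc⟩ := exists_nu hι h2 hD h0 T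
  have hT := IsSylowIn.of_sylow_subgroup T
  exact le_of_perfect hr.perfect (frat hr (nrm_iff_le_normalizer.1 hN) hT
    (fun g hg n h x hx => (cent7 (by omega) hζ Nat.prime_two h2 hT.pgroup h hg x hx).symm)
    fun C hC A _ π a c => sec73 h2 hζ.neZero'.ne hν hp hm
      (fun g hg => hc g fun t ht => (hC hg _ ⟨t, ht, rfl⟩).symm) π)

end LF2

theorem lemF (hι : Fintype.card ι = 3 ∨ Fintype.card ι = 4) (h2 : (2 : F) ≠ 0) {ζ : F} (hζ : IsPrimitiveRoot ζ 7)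
    {a b c z : GL ι F} (hr : Rel a b c z) (he : env (closure {a, b, c}) = ⊤) {N : Subgroup (GL ι F)}
    (hN : Nrm (closure {a, b, c}) N) (hs : ¬ N ≤ scalars ι F) : closure {a, b, c} ≤ N := by
  induction N using WellFoundedLT.induction with
  | ind N ih =>
  rcases (commutator_le_self N).eq_or_lt with h | h
  · exact LF2.perf hι h2 hζ hr hN h fun e => hs (e.le.trans bot_le)
  · refine (ih _ h (fun k hk x hx => ?_) fun e => hs (LF2.solv hι hζ hr he hN e)).trans h.le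
    have h1 : N.map (MulAut.conj k).toMonoidHom ≤ N := by rintro _ ⟨y, hy, rfl⟩; exact hN k hk y hy
    exact commutator_mono h1 h1 ((map_commutator N N (MulAut.conj k).toMonoidHom).le ⟨x, hx, rfl⟩)

end CfsgLib.Wl7
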